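import Cfsg.Agent.H63.AnDefs2

/-!
# A twist of an involution with four transpositions has fewer than six transpositions
-/

set_option autoImplicit false
set_option maxRecDepth 100000
set_option linter.unusedSectionVars false

namespace Cfsg.Agent.H36.AnP4a

open Cfsg Subgroup Cfsg.Agent.H63.AN
open Equiv (swap Perm)
open Equiv.Perm (sign)

variable {α : Type} [Fintype α] [DecidableEq α]

theorem pp_apply {p : Perm α} (h : p * p = 1) (x : α) : p (p x) = x := by
  rw [← Perm.mul_apply, h, Perm.one_apply]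

theorem PP_comm {p q : Perm α} (h : p * p = 1) (hq : q ∈ PP p) (x : α) : q (p x) = p (q x) := by
  rcases hq.2 x with h1 | h1 <;> rcases hq.2 (p x) with h2 | h2
  · rw [h1, h2]
  · rw [pp_apply h] at h2
    rw [q.injective (h2.trans h1.symm), h1, q.injective (h2.trans h1.symm)]
  · have h3 := q.injective (h2.trans h1.symm)
    rw [h3, h1, h3, h3]
  · rw [h1, h2]

theorem PP_CA {p q : Perm α} (h : p * p = 1) (hq : q ∈ PP p) : q ∈ CA p :=
  mem_CA.2 ⟨Equiv.ext (PP_comm h hq), hq.1⟩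

theorem PP_commute {p q r : Perm α} (h : p * p = 1) (hq : q ∈ PP p) (hr : r ∈ PP p) :
    q * r = r * q := by
  ext x
  rw [Perm.mul_apply, Perm.mul_apply]
  rcases hq.2 x with h1 | h1 <;> rcases hr.2 x with h2 | h2
  · rw [h1, h2, h1]
  · rw [h1, h2, PP_comm h hq, h1]
  · rw [h1, h2, PP_comm h hr, h1, h2]
  · rw [h1, h2, PP_comm h hq, PP_comm h hr, h1, h2]

theorem PP_conj {p q g : Perm α} (hg : Commute g p) (hq : q ∈ PP p) : g * q * g⁻¹ ∈ PP p := by
  refine ⟨by simp [hq.1], fun x => ?_⟩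
  rw [Perm.mul_apply, Perm.mul_apply]
  rcases hq.2 (g⁻¹ x) with h | h <;> rw [h]
  · left; simp
  · right; rw [← Perm.mul_apply, hg.eq]; simp

theorem exists_cols {p : Perm α} (h : p * p = 1) (k : ℕ) (hk : 2 * k ≤ p.support.card) :
    ∃ f : Fin k → α, (∀ i, p (f i) ≠ f i) ∧ ∀ i j, i ≠ j → f i ≠ f j ∧ f i ≠ p (f j) := by
  induction k with
  | zero => exact ⟨Fin.elim0, fun i => i.elim0, fun i => i.elim0⟩
  | succ k ih =>
    obtain ⟨f, h1, h2⟩ := ih (by omega)
    obtain ⟨x, hx, hx'⟩ := Finset.exists_mem_notMem_of_card_lt_card (t := p.support)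
      (s := Finset.univ.image f ∪ Finset.univ.image fun i => p (f i)) (by
        have a1 := Finset.card_image_le (s := Finset.univ) (f := f)
        have a2 := Finset.card_image_le (s := Finset.univ) (f := fun i => p (f i))
        have a3 := Finset.card_union_le (Finset.univ.image f) (Finset.univ.image fun i => p (f i))
        rw [Finset.card_univ, Fintype.card_fin] at a1 a2
        omega)
    simp only [Finset.mem_union, Finset.mem_image, Finset.mem_univ, true_and, not_or,
      not_exists] at hx'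
    refine ⟨Fin.cons x f, fun i => ?_, fun i j => ?_⟩
    · refine Fin.cases ?_ (fun i => ?_) i
      · exact Perm.mem_support.1 hx
      · exact h1 i
    · refine Fin.cases ?_ (fun i => ?_) i <;> refine Fin.cases ?_ (fun j => ?_) j
      · exact fun e => (e rfl).elim
      · exact fun _ => ⟨Ne.symm (hx'.1 j), Ne.symm (hx'.2 j)⟩
      · refine fun _ => ⟨hx'.1 i, fun e => hx'.2 i ?_⟩
        exact (congrArg p e).trans (pp_apply h x)
      · exact fun e => h2 i j fun e' => e (congrArg _ e')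

/-- Five transpositions. -/
def p10 : Perm (Fin 10) := swap 0 1 * swap 2 3 * swap 4 5 * swap 6 7 * swap 8 9
/-- Two parallel five-cycles. -/
def b10 : Perm (Fin 10) := s12 * s23 * s34 * (swap 6 8 * swap 7 9)

/-- The column of a point. -/
def c (i : Fin 10) : Fin 5 := ⟨i / 2, by omega⟩

theorem exists_emb {p : Perm α} (h : p * p = 1) (hk : 10 ≤ p.support.card) :
    ∃ e : Fin 10 ↪ α, ∀ i, p (e i) = e (p10 i) := by
  obtain ⟨f, h1, h2⟩ := exists_cols h 5 hk
  let e : Fin 10 → α := fun i => if i.1 % 2 = 0 then f (c i) else p (f (c i))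
  refine ⟨⟨e, fun i j hij => ?_⟩, fun i => ?_⟩
  · have k : ∀ i j : Fin 10, c i = c j → (i.1 % 2 = 0 ↔ j.1 % 2 = 0) → i = j := by decide +kernel
    simp only [e] at hij
    by_cases hc : c i = c j
    · refine k i j hc ?_
      rw [hc] at hij
      split_ifs at hij with a1 a2 a2
      · simp [a1, a2]
      · exact (h1 _ hij.symm).elim
      · exact (h1 _ hij).elim
      · simp [a1, a2]
    · split_ifs at hij with a1 a2 a2
      · exact ((h2 _ _ hc).1 hij).elim
      · exact ((h2 _ _ hc).2 hij).elim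
      · exact ((h2 _ _ (Ne.symm hc)).2 hij.symm).elim
      · exact ((h2 _ _ hc).1 (p.injective hij)).elim
  · have k : ∀ i : Fin 10, c (p10 i) = c i ∧ ((p10 i).1 % 2 = 0 ↔ ¬ i.1 % 2 = 0) := by decide +kernel
    change p (e i) = e (p10 i)
    simp only [e, (k i).1, (k i).2]
    by_cases a : i.1 % 2 = 0
    · simp [a]
    · simp [a, pp_apply h]

theorem em_comm {p : Perm α} {e : Fin 10 ↪ α} (he : ∀ i, p (e i) = e (p10 i))
    {a : Perm (Fin 10)} (ha : a * p10 = p10 * a) : Commute (em e a) p := by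
  refine Equiv.ext fun y => ?_
  rw [Perm.mul_apply, Perm.mul_apply]
  by_cases h : ∃ i, e i = y
  · obtain ⟨i, rfl⟩ := h
    rw [he, em_apply, em_apply, he, ← Perm.mul_apply, ha, Perm.mul_apply]
  · push Not at h
    rw [em_of_not e a h, em_of_not e a fun i hi => h (p10⁻¹ i) (p.injective (by
      rw [he, ← hi]; simp))]

theorem em_PP {p : Perm α} {e : Fin 10 ↪ α} (he : ∀ i, p (e i) = e (p10 i))
    {a : Perm (Fin 10)} (ha : sign a = 1 ∧ ∀ i, a i = i ∨ a i = p10 i) : em e a ∈ PP p := by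
  refine ⟨by rw [sign_em, ha.1], fun y => ?_⟩
  by_cases h : ∃ i, e i = y
  · obtain ⟨i, rfl⟩ := h
    rw [em_apply, he]
    exact (ha.2 i).imp (congrArg e) (congrArg e)
  · push Not at h
    exact Or.inl (em_of_not e a h)

theorem fix_of_five {p γ : Perm α} (h : p * p = 1) (h5 : γ ^ 5 = 1) (hc : Commute γ p)
    (h8 : p.support.card < 10) {y : α} (hy : p y ≠ y) : γ y = y := by
  by_contra h0
  have hp : p ^ 2 = 1 := by rw [sq, h]
  have e10 : (p * γ) ^ 10 = 1 := by
    rw [hc.symm.mul_pow, show 10 = 2 * 5 from rfl, pow_mul, hp, one_pow, one_mul, mul_comm, pow_mul,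
      h5, one_pow]
  have e5 : (p * γ) ^ 5 = p := by
    rw [hc.symm.mul_pow, h5, mul_one, show 5 = 2 * 2 + 1 from rfl, pow_succ, pow_mul, hp, one_pow,
      one_mul]
  have e6 : (p * γ) ^ 6 = γ := by
    rw [hc.symm.mul_pow, show 6 = 2 * 3 from rfl, pow_mul, hp, one_pow, one_mul,
      show 2 * 3 = 5 + 1 from rfl, pow_succ, h5, one_mul]
  have d10 : Function.minimalPeriod (p * γ) y ∣ 10 := Function.IsPeriodicPt.minimalPeriod_dvd (by
    change (p * γ)^[10] y = y
    rw [← Perm.coe_pow, e10]; rfl)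
  have n5 : ¬ Function.minimalPeriod (p * γ) y ∣ 5 := fun h1 => hy (by
    have h2 : (p * γ)^[5] y = y := Function.isPeriodicPt_iff_minimalPeriod_dvd.2 h1
    rwa [← Perm.coe_pow, e5] at h2)
  have n6 : ¬ Function.minimalPeriod (p * γ) y ∣ 6 := fun h1 => h0 (by
    have h2 : (p * γ)^[6] y = y := Function.isPeriodicPt_iff_minimalPeriod_dvd.2 h1
    rwa [← Perm.coe_pow, e6] at h2)
  have hm : Function.minimalPeriod (p * γ) y = 10 := by
    have h1 := Nat.le_of_dvd (by norm_num) d10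
    generalize Function.minimalPeriod (p * γ) y = m at *
    interval_cases m <;> simp_all
  have hi := Function.iterate_injOn_Iio_minimalPeriod (f := (p * γ : Perm α)) (x := y)
  rw [hm] at hi
  have h1 := Finset.card_le_card_of_injOn (s := Finset.range 10) (t := p.support)
    (fun n => (p * γ)^[n] y) (fun n _ => ?_) (by rwa [Finset.coe_range])
  · rw [Finset.card_range] at h1; omega
  · have h2 : Commute p ((p * γ) ^ n) := ((Commute.refl p).mul_right hc.symm).pow_right n
    rw [Finset.mem_coe, Perm.mem_support]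
    beta_reduce
    rw [← Perm.coe_pow, ← Perm.mul_apply, h2.eq, Perm.mul_apply]
    exact fun h3 => hy (((p * γ) ^ n).injective h3)

theorem nea {F : Finset α} (hF : 5 ≤ F.card) {n : Perm α} (h1 : n ≠ 1) (h2 : n * n = 1)
    (hn : ∀ y, y ∉ F → n y = y)
    (h : ∀ c : Perm α, sign c = 1 → (∀ y, y ∉ F → c y = y) → Commute n (c * n * c⁻¹)) : False := by
  obtain ⟨x, hx⟩ : ∃ x, n x ≠ x := by
    by_contra h3
    push Not at h3
    exact h1 (Equiv.ext h3)
  have hy : n x ∈ F := by
    by_contra h3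
    exact hx (n.injective (hn _ h3))
  obtain ⟨l, hl, hl'⟩ := Finset.exists_mem_notMem_of_card_lt_card (t := F) (s := {x, n x})
    (Finset.card_le_two.trans_lt (by omega))
  obtain ⟨m, hm, hm'⟩ := Finset.exists_mem_notMem_of_card_lt_card (t := F) (s := {x, n x, l, n l})
    (Finset.card_le_four.trans_lt (by omega))
  simp only [Finset.mem_insert, Finset.mem_singleton, not_or] at hl' hm'
  obtain ⟨l1, l2⟩ := hl'
  obtain ⟨m1, m2, m3, m4⟩ := hm'
  have hfix : ∀ a, a ≠ n x → a ≠ l → a ≠ m → (swap (n x) m * swap (n x) l) a = a :=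
    fun a a1 a2 a3 => by
      rw [Perm.mul_apply, Equiv.swap_apply_of_ne_of_ne a1 a2, Equiv.swap_apply_of_ne_of_ne a1 a3]
  have cy : (swap (n x) m * swap (n x) l) (n x) = l := by
    rw [Perm.mul_apply, Equiv.swap_apply_left, Equiv.swap_apply_of_ne_of_ne l2 (Ne.symm m3)]
  have cm : (swap (n x) m * swap (n x) l) m = n x := by
    rw [Perm.mul_apply, Equiv.swap_apply_of_ne_of_ne m2 m3, Equiv.swap_apply_right]
  have cx := hfix x (Ne.symm hx) (Ne.symm l1) (Ne.symm m1)
  have h3 := h (swap (n x) m * swap (n x) l) (by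
    rw [Perm.sign_mul, Perm.sign_swap (Ne.symm m2), Perm.sign_swap (Ne.symm l2)]; decide)
    fun y hy' => hfix y (by rintro rfl; exact hy' hy) (by rintro rfl; exact hy' hl)
      (by rintro rfl; exact hy' hm)
  generalize swap (n x) m * swap (n x) l = c at hfix cy cm cx h3
  have k : ∀ a, (c * n * c⁻¹) (c a) = c (n a) := fun a => by simp
  have h4 : n ((c * n * c⁻¹) x) = (c * n * c⁻¹) (n x) := congrArg (fun s : Perm α => s x) h3.eq
  have k1 := k x
  have k2 := k m
  rw [cx, cy] at k1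
  rw [cm] at k2
  rw [k1, k2] at h4
  by_cases h5 : n m = m
  · rw [h5, cm] at h4
    exact l1 (n.injective h4)
  · rw [hfix (n m) (fun e => m1 (n.injective e)) (fun e => m4 (by rw [← e, pp_apply h2])) h5] at h4
    exact m3 (n.injective h4).symm

theorem p4a : P4aStmt := by
  intro α _ _ _ p p' φ φ' T ⟨h, h'⟩ h8
  by_contra h12
  obtain ⟨e, he⟩ := exists_emb h'.p2 (by omega)
  have hb : em e b10 ∈ CA p' := mem_CA.2 ⟨em_comm he (by decide +kernel), by rw [sign_em]; decide⟩
  have hw : em e ww ∈ CA p' := PP_CA h'.p2 (em_PP he (by decide +kernel))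
  have hw' : em e (ww * b10 * ww⁻¹ * b10⁻¹) ∈ PP p' := em_PP he (by decide +kernel)
  let f : CA p' →* Perm α := MonoidHom.mk' (fun a => φ' a) fun a b => h'.mul a a.2 b b.2
  have h5 : φ' (em e b10) ^ 5 = 1 := by
    have : (⟨em e b10, hb⟩ : CA p') ^ 5 = 1 := Subtype.ext (by
      change em e b10 ^ 5 = 1
      rw [← map_pow, show b10 ^ 5 = 1 by decide +kernel, map_one])
    exact (map_pow f ⟨_, hb⟩ 5).symm.trans (by rw [this, map_one])
  have hn : φ' (em e (ww * b10 * ww⁻¹ * b10⁻¹)) =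
      φ' (em e ww) * φ' (em e b10) * (φ' (em e ww))⁻¹ * (φ' (em e b10))⁻¹ := by
    have : f (⟨_, hw⟩ * ⟨_, hb⟩ * ⟨_, hw⟩⁻¹ * ⟨_, hb⟩⁻¹) =
        f ⟨_, hw⟩ * f ⟨_, hb⟩ * (f ⟨_, hw⟩)⁻¹ * (f ⟨_, hb⟩)⁻¹ := by
      simp only [map_mul, map_inv]
    rw [map_mul, map_mul, map_mul, map_inv, map_inv]
    exact this
  have hsq : em e (ww * b10 * ww⁻¹ * b10⁻¹) * em e (ww * b10 * ww⁻¹ * b10⁻¹) = 1 := by
    rw [← map_mul, show ww * b10 * ww⁻¹ * b10⁻¹ * (ww * b10 * ww⁻¹ * b10⁻¹) = 1 by decide +kernel, map_one]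
  have hne : em e (ww * b10 * ww⁻¹ * b10⁻¹) ≠ 1 := fun h1 =>
    absurd (em_inj e (h1.trans (map_one _).symm)) (by decide +kernel)
  have hγ := fun y hy => fix_of_five h.p2 h5 (h'.cm _ hb) (by omega) (y := y) hy
  have hu := h'.cm _ hw
  generalize em e (ww * b10 * ww⁻¹ * b10⁻¹) = w at hw' hn hsq hne
  generalize φ' (em e b10) = γ at h5 hn hγ
  generalize φ' (em e ww) = u at hn hu
  have hwC := PP_CA h'.p2 hw'
  have n1 : φ' w ≠ 1 := fun h1 => hne (h'.inj _ hwC hsq h1)
  have hγ1 : γ ≠ 1 := by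
    rintro rfl
    exact n1 (by rw [hn]; group)
  have hF : 5 ≤ p.supportᶜ.card := by
    have : Fact (Nat.Prime 5) := ⟨by norm_num⟩
    have h1 := orderOf_eq_prime h5 hγ1
    have h2 : γ.support ⊆ p.supportᶜ := fun y hy => by
      rw [Finset.mem_compl, Perm.mem_support]
      exact fun h3 => Perm.mem_support.1 hy (hγ y h3)
    refine le_trans ?_ (Finset.card_le_card h2)
    obtain ⟨k, hk⟩ := Perm.cycleType_prime_order (σ := γ) (by rw [h1]; norm_num)
    rw [← Perm.sum_cycleType, hk, h1, Multiset.sum_replicate, smul_eq_mul]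
    omega
  refine nea hF n1 ?_ (fun y hy => ?_) fun c hc hc' => ?_
  · rw [← h'.mul _ hwC _ hwC, hsq]; exact map_one f
  · rw [Finset.mem_compl, not_not, Perm.mem_support] at hy
    have h1 : γ⁻¹ y = y := by rw [Perm.inv_eq_iff_eq, hγ y hy]
    have h2 : p (u⁻¹ y) ≠ u⁻¹ y := fun h3 => hy (by
      rw [← Perm.mul_apply, ← hu.inv_left.eq, Perm.mul_apply] at h3
      exact u⁻¹.injective h3)
    rw [hn, Perm.mul_apply, Perm.mul_apply, Perm.mul_apply, h1, hγ _ h2]
    simp
  · have hcC : c ∈ CA p := mem_CA.2 ⟨Perm.Disjoint.commute fun y => by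
      by_cases hy : p y = y
      · exact Or.inr hy
      · exact Or.inl (hc' y (by simpa using hy)), hc⟩
    have h1 := PP_conj (h.cm c hcC) hw'
    rw [← h'.cp w hwC c hcC, Commute, SemiconjBy, ← h'.mul _ hwC _ (PP_CA h'.p2 h1),
      ← h'.mul _ (PP_CA h'.p2 h1) _ hwC, PP_commute h'.p2 hw' h1]

end Cfsg.Agent.H36.AnP4a
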