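import Mathlib
import Cfsg.Agent.H4.DerLen

/-! Hall-Higman: `l_p ≤ d_p` for odd `p`. -/

set_option autoImplicit false
set_option linter.unusedSectionVars false
set_option linter.unusedVariables false
set_option linter.style.haveILetI false

namespace Cfsg.Agent.H36.DerOdd

open Cfsg Subgroup Module H4 H4.HH
open scoped commutatorElement Pointwise

universe u

section Grp

variable {Γ : Type*} [Group Γ] [Finite Γ]

theorem core3 {A Q B : Subgroup Γ} [IsMulCommutative Q] (hA : IsPGroup 3 A)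
    (hQ : (Nat.card Q).Coprime 3) (hAQ : A ≤ normalizer (Q : Set Γ)) (hB : B ≤ ⁅A, A⁆)
    (hAB : A ≤ normalizer (B : Set Γ)) (h3 : ∀ b ∈ B, b ^ 3 = 1)
    (H : ∀ a ∈ B, ∀ x ∈ Q, ∀ y ∈ Q, ∃ i < 3, ∃ j < 3, (i ≠ 0 ∨ j ≠ 0) ∧
      x * y = (a ^ i * x * (a ^ i)⁻¹) * (a ^ j * y * (a ^ j)⁻¹)) : B ≤ centralizer (Q : Set Γ) := by
  classical
  haveI : Fact (Nat.Prime 3) := ⟨Nat.prime_three⟩
  haveI := hA.isNilpotent
  have hBA : B ≤ A := hB.trans (commutator_le_self A)
  haveI : (B.subgroupOf A).Normal := normal_subgroupOf_of_le_normalizer hAB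
  haveI : ((centralizer (Q : Set Γ)).subgroupOf A).Normal :=
    normal_subgroupOf_of_le_normalizer (le_normalizer_centralizer hAQ)
  by_contra hne
  obtain ⟨⟨a, haA⟩, haB, ha, hz⟩ := H3.exists_central_mod (N := (centralizer (Q : Set Γ)).subgroupOf A)
    (C := B.subgroupOf A) (fun h => hne fun b hb => h (show (⟨b, hBA hb⟩ : A) ∈ _ from hb))
  change a ∈ B at haB
  change a ∉ centralizer (Q : Set Γ) at ha
  set D := (A ⊓ centralizer (Q : Set Γ)) ⊔ zpowers a with hD
  have hDA : D ≤ A := sup_le inf_le_left (zpowers_le.mpr haA)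
  have hn0 : A ≤ normalizer ((A ⊓ centralizer (Q : Set Γ) : Subgroup Γ) : Set Γ) :=
    le_normalizer_inf le_normalizer (le_normalizer_centralizer hAQ)
  have hAD : A ≤ normalizer (D : Set Γ) := by
    intro g hg
    rw [mem_normalizer_iff_conj_smul]
    refine eq_of_le_of_card_ge ?_ (card_conj_smul D g).ge
    rw [hD, smul_sup, mem_normalizer_iff_conj_smul.mp (hn0 hg)]
    refine sup_le le_sup_left ?_
    rw [conj_smul_eq_map, MonoidHom.map_zpowers, zpowers_le]
    have := mul_mem (mem_sup_left (show ⁅g, a⁆ ∈ A ⊓ centralizer (Q : Set Γ) from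
      ⟨(⁅(⟨g, hg⟩ : A), (⟨a, haA⟩ : A)⁆).2, hz (⟨g, hg⟩ : A)⟩)) (mem_sup_right (mem_zpowers a))
    simpa [commutatorElement_def] using this
  set U := ⁅Q, D⁆ with hU
  have hUQ : U ≤ Q := commutator_le_left_of_le_normalizer (hDA.trans hAQ)
  have hAU : A ≤ normalizer (U : Set Γ) := le_normalizer_commutator hAQ hAD
  have hbot := centralizer_inf_commutator_eq_bot (hDA.trans hAQ)
    (H3.coprime_card_of_isPGroup (hA.to_le hDA) hQ.symm)
  have hfix : ∀ y ∈ U, ∀ j < 3, j ≠ 0 → a ^ j * y * (a ^ j)⁻¹ = y → y = 1 := by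
    intro y hy j hj hj0 h
    rw [← mem_bot, ← hbot]
    refine ⟨?_, hy⟩
    rw [hD, H3.centralizer_sup]
    refine ⟨fun g hg => (hg.2 y (hUQ hy)).symm, ?_⟩
    have h1 : Commute (a ^ j) y := mul_inv_eq_iff_eq_mul.mp h
    have h2 : Commute a y := by
      obtain rfl | rfl : j = 1 ∨ j = 2 := by omega
      · simpa using h1
      · have := h1.pow_left 2
        rwa [← pow_mul, show 2 * 2 = 3 + 1 from rfl, pow_succ, h3 a haB, one_mul] at this
    rintro _ ⟨n, rfl⟩
    exact h2.zpow_left n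
  have hU0 : U ≠ ⊥ := fun h => ha (le_centralizer_iff.mp (commutator_eq_bot_iff_le_centralizer.mp h)
    (mem_sup_right (mem_zpowers a)))
  obtain ⟨x, hx, hx1⟩ := (bot_or_exists_ne_one U).resolve_left hU0
  have hcj : ∀ y ∈ U, ∀ j : ℕ, a ^ j * y * (a ^ j)⁻¹ ∈ U := fun y hy j =>
    conj_mem_of_mem_normalizer (hAU (pow_mem haA j)) hy
  have hc : ∀ s ∈ U, ∀ t ∈ U, s * t = t * s := fun s hs t ht => le_centralizer Q (hUQ ht) s (hUQ hs)
  have hcard : Nat.card U ≤ 5 := by
    have key : ∀ y : U, ∃ o : Option (Fin 2 × Fin 2), (y = 1 ∧ o = none) ∨ ∃ i j, o = some (i, j) ∧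
        x * y = (a ^ (i.1 + 1) * x * (a ^ (i.1 + 1))⁻¹) * (a ^ (j.1 + 1) * y * (a ^ (j.1 + 1))⁻¹) := by
      intro y
      by_cases hy : y = 1
      · exact ⟨none, Or.inl ⟨hy, rfl⟩⟩
      obtain ⟨i, hi, j, hj, hij, e⟩ := H a haB x (hUQ hx) y (hUQ y.2)
      have hi0 : i ≠ 0 := by
        rintro rfl
        refine hy (Subtype.ext (hfix y y.2 j hj (hij.resolve_left (by simp)) ?_))
        simpa using e.symm
      have hj0 : j ≠ 0 := by
        rintro rfl
        refine hx1 (hfix x hx i hi hi0 ?_)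
        simpa using e.symm
      refine ⟨some (⟨i - 1, by omega⟩, ⟨j - 1, by omega⟩), Or.inr ⟨_, _, rfl, ?_⟩⟩
      simp only [Nat.sub_add_cancel (Nat.pos_of_ne_zero hi0), Nat.sub_add_cancel (Nat.pos_of_ne_zero hj0)]
      exact e
    choose f hf using key
    have : Function.Injective f := by
      intro y y' e
      rcases hf y with ⟨h1, h2⟩ | ⟨i, j, h1, h2⟩ <;> rcases hf y' with ⟨h1', h2'⟩ | ⟨i', j', h1', h2'⟩
      · rw [h1, h1']
      · rw [h2, h1'] at e; cases e
      · rw [h1, h2'] at e; cases e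
      · rw [h1, h1'] at e
        obtain ⟨rfl, rfl⟩ : i = i' ∧ j = j' := by simpa using e
        have hm : ((y'⁻¹ * y : U) : Γ) = 1 := by
          refine hfix _ (y'⁻¹ * y).2 (j.1 + 1) (by omega) (by omega) ?_
          simp only [coe_mul, coe_inv]
          set c := a ^ (j.1 + 1)
          set d := a ^ (i.1 + 1) * x * (a ^ (i.1 + 1))⁻¹
          calc c * ((y' : Γ)⁻¹ * y) * c⁻¹ = (d * (c * y' * c⁻¹))⁻¹ * (d * (c * y * c⁻¹)) := by group
            _ = _ := by rw [← h2, ← h2']; group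
        exact (inv_mul_eq_one.mp (Subtype.ext hm)).symm
    simpa using Nat.card_le_card_of_injective f this
  let φ : A →* Equiv.Perm U :=
    (MulAut.toPerm U).comp (U.normalizerMonoidHom.comp (inclusion hAU))
  have hr : Nat.card φ.range ∣ 3 := by
    obtain ⟨k, hk⟩ := IsPGroup.iff_card.mp (hA.of_surjective φ.rangeRestrict φ.rangeRestrict_surjective)
    have h1 : Nat.card φ.range ∣ Nat.factorial 5 := by
      refine (card_subgroup_dvd_card _).trans ?_
      rw [Nat.card_perm]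
      exact Nat.factorial_dvd_factorial hcard
    rw [hk] at h1 ⊢
    rcases k with _ | _ | k
    · simp
    · simp
    · exact absurd ((pow_dvd_pow 3 (by omega : 2 ≤ k + 1 + 1)).trans h1) (by decide)
  haveI : IsCyclic φ.range := isCyclic_of_card_dvd_prime hr
  have hk : ⁅A, A⁆ ≤ φ.ker.map A.subtype := by
    rw [commutator_le]
    intro g hg h hh
    refine ⟨⁅(⟨g, hg⟩ : A), (⟨h, hh⟩ : A)⁆, ?_, rfl⟩
    rw [SetLike.mem_coe, MonoidHom.mem_ker, map_commutatorElement, commutatorElement_eq_one_iff_mul_comm]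
    letI := IsCyclic.commGroup (α := φ.range)
    exact congrArg Subtype.val (mul_comm (φ.rangeRestrict ⟨g, hg⟩) (φ.rangeRestrict ⟨h, hh⟩))
  obtain ⟨b, hb, rfl⟩ := hk (hB haB)
  refine hx1 (hfix x hx 1 (by omega) (by omega) ?_)
  have := congrArg (fun s : Equiv.Perm U => (s ⟨x, hx⟩ : Γ)) (MonoidHom.mem_ker.mp hb)
  rw [pow_one]
  exact this

theorem rel3 {A Q B R : Subgroup Γ} (hA : IsPGroup 3 A)
    (hQ : (Nat.card Q).Coprime 3) (hAQ : A ≤ normalizer (Q : Set Γ)) (hB : B ≤ ⁅A, A⁆)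
    (hAB : A ≤ normalizer (B : Set Γ)) (h3 : ∀ b ∈ B, b ^ 3 = 1) (hQR : ⁅Q, Q⁆ ≤ R) (hRQ : R ≤ Q)
    (hAR : A ≤ normalizer (R : Set Γ))
    (H : ∀ a ∈ B, ∀ x ∈ Q, ∀ y ∈ Q, ∃ i < 3, ∃ j < 3, (i ≠ 0 ∨ j ≠ 0) ∧
      (x * y)⁻¹ * ((a ^ i * x * (a ^ i)⁻¹) * (a ^ j * y * (a ^ j)⁻¹)) ∈ R) : ⁅B, Q⁆ ≤ R := by
  have hBA : B ≤ A := hB.trans (commutator_le_self A)
  set L := normalizer (R : Set Γ)
  have hQL : Q ≤ L := le_normalizer_iff_commutator_le_right.mpr ((commutator_mono le_rfl hRQ).trans hQR)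
  haveI : (R.subgroupOf L).Normal := normal_in_normalizer
  set π := QuotientGroup.mk' (R.subgroupOf L)
  have hc : ∀ {X Y : Subgroup Γ}, X ≤ L → Y ≤ L →
      (⁅(X.subgroupOf L).map π, (Y.subgroupOf L).map π⁆ = ⊥ ↔ ⁅X, Y⁆ ≤ R) := by
    intro X Y hX hY
    rw [← map_commutator, Subgroup.map_eq_bot_iff, QuotientGroup.ker_mk',
      ← map_le_map_iff_of_injective L.subtype_injective, map_commutator, map_subgroupOf_eq_of_le hX,
      map_subgroupOf_eq_of_le hY, map_subgroupOf_eq_of_le le_normalizer]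
  have hn : ∀ {X Y : Subgroup Γ}, X ≤ normalizer (Y : Set Γ) →
      (X.subgroupOf L).map π ≤ normalizer (((Y.subgroupOf L).map π : Subgroup _) : Set _) := fun h =>
    (map_mono ((comap_mono h).trans (le_normalizer_comap _))).trans (le_normalizer_map _)
  haveI : IsMulCommutative ((Q.subgroupOf L).map π) := by
    rw [← le_centralizer_iff_isMulCommutative, ← commutator_eq_bot_iff_le_centralizer, hc hQL hQL]
    exact hQR
  rw [← hc (hBA.trans hAR) hQL, commutator_eq_bot_iff_le_centralizer]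
  refine core3 (A := (A.subgroupOf L).map π) (hA.comap_subtype.map _)
    (hQ.coprime_dvd_left ((card_map_dvd _ _).trans (card_subgroupOf_of_le hQL).dvd)) (hn hAQ) ?_
    (hn hAB) ?_ ?_
  · rw [← map_commutator]
    refine map_mono ?_
    rw [← map_le_map_iff_of_injective L.subtype_injective, map_commutator,
      map_subgroupOf_eq_of_le hAR, map_subgroupOf_eq_of_le (hBA.trans hAR)]
    exact hB
  · rintro _ ⟨b, hb, rfl⟩
    rw [← map_pow, show b ^ 3 = 1 from Subtype.ext (h3 b hb), map_one]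
  · rintro _ ⟨a, ha, rfl⟩ _ ⟨x, hx, rfl⟩ _ ⟨y, hy, rfl⟩
    obtain ⟨i, hi, j, hj, hij, e⟩ := H a ha x hx y hy
    refine ⟨i, hi, j, hj, hij, ?_⟩
    simp only [← map_pow, ← map_inv, ← map_mul]
    exact QuotientGroup.eq.mpr e

end Grp

theorem indep {K V G ι : Type*} [Field K] [AddCommGroup V] [Module K V] [Group G] (Q : Subgroup G)
    (κ : ι → G → K) (h1 : ∀ i, κ i 1 = 1) (hm : ∀ i, ∀ s ∈ Q, ∀ t ∈ Q, κ i (s * t) = κ i s * κ i t)
    (i₀ : ι) (s : Finset ι) : ∀ v : ι → V, i₀ ∉ s → (∀ t ∈ Q, κ i₀ t • v i₀ + ∑ i ∈ s, κ i t • v i = 0) →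
      (∀ i ∈ s, ∃ t ∈ Q, κ i t ≠ κ i₀ t) → v i₀ = 0 := by
  classical
  induction s using Finset.induction_on with
  | empty => intro v _ h _; simpa [h1] using h 1 Q.one_mem
  | insert j s hj ih =>
    intro v h0 h hne
    obtain ⟨t₁, ht₁, e⟩ := hne j (Finset.mem_insert_self _ _)
    have := ih (fun i => (κ i t₁ - κ j t₁) • v i) (fun h => h0 (Finset.mem_insert_of_mem h)) (fun t ht => by
      have a1 := h (t * t₁) (Q.mul_mem ht ht₁)
      have a2 := congrArg (κ j t₁ • ·) (h t ht)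
      simp only [Finset.sum_insert hj, hm _ _ ht _ ht₁, smul_add, Finset.smul_sum, smul_zero] at a1 a2
      rw [← sub_zero 0, ← congrArg₂ (· - ·) a1 a2]
      simp only [smul_smul, sub_smul, smul_sub, Finset.sum_sub_distrib, mul_comm (κ j t₁)]
      abel) (fun i hi => hne i (Finset.mem_insert_of_mem hi))
    exact (smul_eq_zero.mp this).resolve_left (sub_ne_zero.mpr e.symm)

variable {K : Type*} [Field K] {V : Type*} [AddCommGroup V] [Module K V]
variable {G : Type u} [Group G] [Finite G] {ρ : Representation K G V}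

theorem norm3 [CharP K 3] {a : G} (h : (ρ a - 1) * (ρ a - 1) = 0) (x : G) :
    ∑ i ∈ Finset.range 3, ρ (a ^ i * x * (a ^ i)⁻¹) = (ρ a - 1) * ρ x * (ρ a - 1) := by
  obtain ⟨N, hN⟩ : ∃ N, ρ a = 1 + N := ⟨ρ a - 1, by abel⟩
  rw [hN, add_sub_cancel_left] at h ⊢
  have h1 : ρ a⁻¹ = 1 - N := by
    have : ρ a⁻¹ * ((1 + N) * (1 - N)) = 1 - N := by
      rw [← hN, ← mul_assoc, ← map_mul, inv_mul_cancel, map_one, one_mul]
    rwa [show (1 + N) * (1 - N) = 1 - N * N by noncomm_ring, h, sub_zero, mul_one] at this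
  have h2 : ρ (a ^ 2) = 1 + N + N := by
    rw [sq, map_mul, hN, show (1 + N) * (1 + N) = 1 + N + N + N * N by noncomm_ring, h, add_zero]
  have h3 : ρ (a ^ 2)⁻¹ = 1 - N - N := by
    rw [← inv_pow, sq, map_mul, h1, show (1 - N) * (1 - N) = 1 - N - N + N * N by noncomm_ring, h, add_zero]
  have h4 : ∀ T : End K V, T + T + T = 0 := fun T => by
    have : (3 : K) = 0 := CharP.cast_eq_zero K 3
    calc T + T + T = (3 : K) • T := by module
      _ = 0 := by rw [this, zero_smul]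
  simp only [Finset.sum_range_succ, Finset.sum_range_zero, map_mul, pow_zero, inv_one, map_one, pow_one,
    h1, h2, h3, hN]
  rw [← sub_eq_zero]
  refine Eq.trans ?_ (h4 (ρ x + N * ρ x - ρ x * N - N * ρ x * N - N * ρ x * N))
  noncomm_ring

theorem le_wtKer3 [CharP K 3] (hρ : Function.Injective ρ) {Q : Subgroup G} {χ : G → K}
    (hQ : (Nat.card Q).Coprime 3) (hcl : ⁅Q, Q⁆ ≤ centralizer (Q : Set G))
    (h0 : wt ρ (Q ⊓ centralizer (Q : Set G)) χ ≠ ⊥) {A B : Subgroup G} (hA : IsPGroup 3 A)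
    (hAQ : A ≤ normalizer (Q : Set G)) (hAχ : A ≤ wtStab (Q ⊓ centralizer (Q : Set G)) χ)
    (hB : B ≤ ⁅A, A⁆) (hAB : A ≤ normalizer (B : Set G))
    (hq : ∀ b ∈ B, (ρ b - 1) * (ρ b - 1) = 0) : B ≤ wtKer Q χ := by
  classical
  haveI : Fact (Nat.Prime 3) := ⟨Nat.prime_three⟩
  have hBA : B ≤ A := hB.trans (commutator_le_self A)
  have hc := fun {x t : G} (hx : x ∈ Q) (ht : t ∈ Q) => commutator_mem_center hcl hx ht
  have hr : ∀ x ∈ Q, ∀ s ∈ Q, ∀ t ∈ Q, χ ⁅x, s * t⁆ = χ ⁅x, s⁆ * χ ⁅x, t⁆ :=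
    fun x hx s hs t ht => by
      rw [← wt_mul h0 (hc hx hs) (hc hx ht)]
      congr 1
      calc ⁅x, s * t⁆ = ⁅x, s⁆ * (s * ⁅x, t⁆) * s⁻¹ := by simp only [commutatorElement_def]; group
        _ = _ := by rw [(hc hx ht).2 s hs]; group
  have hl : ∀ x ∈ Q, ∀ s ∈ Q, ∀ t ∈ Q, χ ⁅x * s, t⁆ = χ ⁅s, t⁆ * χ ⁅x, t⁆ :=
    fun x hx s hs t ht => by
      rw [← wt_mul h0 (hc hs ht) (hc hx ht)]
      congr 1
      calc ⁅x * s, t⁆ = (x * ⁅s, t⁆) * x⁻¹ * ⁅x, t⁆ := by simp only [commutatorElement_def]; group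
        _ = _ := by rw [(hc hs ht).2 x hx]; group
  let R : Subgroup G :=
    { carrier := {x | x ∈ Q ∧ ∀ t ∈ Q, χ ⁅x, t⁆ = 1}
      one_mem' := ⟨Q.one_mem, fun t _ => by rw [commutatorElement_one_left, wt_one h0]⟩
      mul_mem' := fun {a b} ha hb => ⟨Q.mul_mem ha.1 hb.1, fun t ht => by
        rw [hl a ha.1 b hb.1 t ht, ha.2 t ht, hb.2 t ht, one_mul]⟩
      inv_mem' := fun {a} ha => ⟨Q.inv_mem ha.1, fun t ht => by
        have := hl a ha.1 _ (Q.inv_mem ha.1) t ht
        rwa [mul_inv_cancel, commutatorElement_one_left, wt_one h0, ha.2 t ht, mul_one, eq_comm] at this⟩ }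
  have hWQ : Inv ρ Q (wt ρ (Q ⊓ centralizer (Q : Set G)) χ) :=
    inv_wt ((le_centralizer_iff.1 inf_le_right).trans centralizer_le_wtStab)
  have key := rel3 (R := R) hA hQ hAQ hB hAB (fun b hb => hρ (by
      have := sub_one_pow_char_pow K 3 (ρ b) 1
      rw [pow_one, pow_succ, sq, hq b hb, zero_mul, eq_comm, sub_eq_zero] at this
      rw [map_pow, this, map_one]))
    (fun x hx => ⟨commutator_le_self Q hx, fun t ht => by
      rw [commutatorElement_eq_one_iff_mul_comm.mpr (hcl hx t ht).symm, wt_one h0]⟩)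
    (fun x hx => hx.1) (fun g hg => mem_normalizer_of_conj_mem fun x hx =>
      ⟨conj_mem_of_mem_normalizer (hAQ hg) hx.1, fun t ht => by
        rw [← (hAχ hg).2 _ (hc (conj_mem_of_mem_normalizer (hAQ hg) hx.1) ht),
          ← hx.2 _ (inv_conj_mem_of_mem_normalizer (hAQ hg) ht)]
        congr 1
        simp only [commutatorElement_def]; group⟩) (by
    intro a ha x hx y hy
    by_contra hcon
    push Not at hcon
    let z : ℕ × ℕ → G := fun k => (a ^ k.1 * x * (a ^ k.1)⁻¹) * (a ^ k.2 * y * (a ^ k.2)⁻¹)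
    have hz : ∀ k, z k ∈ Q := fun k => Q.mul_mem
      (conj_mem_of_mem_normalizer (hAQ (pow_mem (hBA ha) _)) hx)
      (conj_mem_of_mem_normalizer (hAQ (pow_mem (hBA ha) _)) hy)
    have hsum : ∑ k ∈ Finset.range 3 ×ˢ Finset.range 3, ρ (z k) = 0 := by
      rw [Finset.sum_product]
      simp only [z, map_mul ρ (_ * x * _), ← Finset.mul_sum, ← Finset.sum_mul, norm3 (hq a ha)]
      calc _ = (ρ a - 1) * ρ x * ((ρ a - 1) * (ρ a - 1)) * ρ y * (ρ a - 1) := by noncomm_ring
        _ = 0 := by rw [hq a ha]; simp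
    obtain ⟨w, hw, hw0⟩ := Submodule.exists_mem_ne_zero_of_ne_bot h0
    have hmem : ((0, 0) : ℕ × ℕ) ∈ Finset.range 3 ×ˢ Finset.range 3 := by simp
    have := indep Q (fun k t => χ ⁅z k, t⁆) (fun k => by rw [commutatorElement_one_right, wt_one h0])
      (fun k => hr _ (hz k)) (0, 0) ((Finset.range 3 ×ˢ Finset.range 3).erase (0, 0))
      (fun k => ρ (z k) w) (Finset.notMem_erase _ _) (fun t ht => by
        rw [Finset.add_sum_erase _ (fun k => χ ⁅z k, t⁆ • ρ (z k) w) hmem]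
        apply rep_injective ρ t
        rw [map_zero, map_sum]
        refine Eq.trans ?_ (show (∑ k ∈ Finset.range 3 ×ˢ Finset.range 3, ρ (z k)) (ρ t w) = 0 by
          rw [hsum, LinearMap.zero_apply])
        rw [LinearMap.sum_apply]
        refine Finset.sum_congr rfl fun k _ => ?_
        rw [map_smul, ← hWQ t ht _ (hWQ _ (hz k) w hw) _ (hc (hz k) ht), ← rep_mul_apply, ← rep_mul_apply,
          ← rep_mul_apply]
        congr 2
        simp only [commutatorElement_def]; group) (fun k hk => by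
        obtain ⟨h1, h2⟩ := Finset.mem_erase.mp hk
        obtain ⟨h2, h3⟩ := Finset.mem_product.mp h2
        by_contra h4
        push Not at h4
        refine hcon k.1 (Finset.mem_range.mp h2) k.2 (Finset.mem_range.mp h3)
          (by by_contra h5; push Not at h5; exact h1 (Prod.ext h5.1 h5.2))
          ⟨Q.mul_mem (Q.inv_mem (Q.mul_mem hx hy)) (hz k), fun t ht => ?_⟩
        have e : z (0, 0) = x * y := by simp [z]
        rw [hl _ (Q.inv_mem (Q.mul_mem hx hy)) _ (hz k) t ht, h4 t ht, e,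
          ← hl _ (Q.inv_mem (Q.mul_mem hx hy)) _ (Q.mul_mem hx hy) t ht, inv_mul_cancel,
          commutatorElement_one_left, wt_one h0])
    exact hw0 (rep_injective ρ _ (this.trans (map_zero _).symm)))
  intro b hb
  refine ⟨hAQ (hBA hb), fun x hx t ht => ?_⟩
  have h1 := key (commutator_mem_commutator hb hx)
  rw [show b * x * b⁻¹ = ⁅b, x⁆ * x by simp only [commutatorElement_def]; group,
    hl _ h1.1 x hx t ht, h1.2 t ht, mul_one]

theorem dS_eq_bot [IsAlgClosed K] [FiniteDimensional K V] {p : ℕ} [hp : Fact p.Prime] [CharP K p]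
    (h2 : p ≠ 2) (hρ : Function.Injective ρ) (hG : IsPSolvable p G) (hO : pCore p G = ⊥)
    {P : Subgroup G} (hP : IsPGroup p P) {e : ℕ} (hK : RKil ρ P (e + 1) 0 1) : dS P e = ⊥ := by
  have hq : ∀ b ∈ dS P e, (ρ b - 1) * (ρ b - 1) = 0 := fun b hb =>
    RKil.sub_one (n := 1) e (by rwa [add_comm]) b hb b hb
  by_cases h3 : p = 3
  swap
  · rw [eq_bot_iff]
    intro b hb
    by_contra hb1
    have h5 : 3 < p := by have := hp.out.two_le; omega
    have hbp : b ^ p = 1 := hρ (by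
      have := sub_one_pow_char_pow K p (ρ b) 1
      obtain ⟨k, hk⟩ := Nat.exists_eq_add_of_le hp.out.two_le
      rw [pow_one] at this
      nth_rewrite 1 [hk] at this
      rw [pow_add, sq, hq b hb, zero_mul, eq_comm, sub_eq_zero] at this
      rw [map_pow, this, map_one])
    rcases theoremB ρ hρ hG hO (n := 0) (by simpa using hbp) (by simpa using hb1) 2
      (by rw [sq, hq b hb]) with h | ⟨k, e, q, m, h, -, -, -, h', -⟩
    · simp at h; omega
    · obtain ⟨rfl, rfl⟩ : k = 0 ∧ e = 0 := by omega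
      simp at h'; omega
  subst h3
  refine eq_bot_of_forall_class_two hG hO hP le_rfl (dS_le P e) fun Q q hqp hq3 hQ hcl hPQ _ => ?_
  have hcQ : (Nat.card Q).Coprime 3 :=
    H3.coprime_card_of_isPGroup hQ ((Nat.coprime_primes hqp Nat.prime_three).2 hq3)
  have hne : ∀ {X : Subgroup G}, (Nat.card X).Coprime 3 → (Nat.card X : K) ≠ 0 := fun h h' =>
    (Nat.Prime.coprime_iff_not_dvd Nat.prime_three).mp h.symm ((CharP.cast_eq_zero_iff K 3 _).mp h')
  have hPZ := le_normalizer_inf hPQ (le_normalizer_centralizer hPQ)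
  refine le_centralizer_of_wtKer hρ (hne hcQ) hcl ((dS_le P e).trans hPQ)
    (H3.coprime_card_of_isPGroup (hP.to_le (dS_le P e)) hcQ.symm)
    (dS_le_centralizer hρ (hne (H3.coprime_card_of_le inf_le_left hcQ)) hP hPZ hK) fun χ h0 => ?_
  obtain ⟨j, n, hjn, hj, hL⟩ := exists_level hP hPZ hK h0
  cases n with
  | succ n =>
    exact le_wtKer3 hρ hcQ hcl h0 (hP.to_le (dS_le P j)) ((dS_le P j).trans hPQ) hj
      (dS_anti P (show j + 1 ≤ e by omega)) ((dS_le P j).trans (le_normalizer_dS le_normalizer e)) hq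
  | zero =>
    obtain rfl : j = e := by omega
    intro u hu
    have huZ := dS_le_centralizer hρ (hne (H3.coprime_card_of_le inf_le_left hcQ)) hP hPZ hK hu
    have huQ := hPQ (dS_le P j hu)
    have h1 := hL (ρ u - 1) (fun w hw => sub_mem (inv_wt hj u hu w hw) hw)
      (fun w hw => sub_mem (inv_wtOut (B := zpowers u)
        ((zpowers_le.mpr huZ).trans (centralizer_le_normalizer _)) (fun b hb a ha =>
        ⟨a, ha, fun z hz => by rw [← zpowers_le.mpr huZ hb z hz, mul_inv_cancel_right]⟩) u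
        (mem_zpowers u) w hw) hw) (fun T hT => hT u hu)
    have h4 : ∀ w ∈ wt ρ (Q ⊓ centralizer (Q : Set G)) χ, ρ u w = w := fun w hw =>
      sub_eq_zero.mp (h1 w hw)
    have hWQ : Inv ρ Q (wt ρ (Q ⊓ centralizer (Q : Set G)) χ) :=
      inv_wt ((le_centralizer_iff.1 inf_le_right).trans centralizer_le_wtStab)
    have h5 : ∀ x ∈ Q, ∀ w ∈ wt ρ (Q ⊓ centralizer (Q : Set G)) χ, ρ (u * x * u⁻¹) w = ρ x w := by
      intro x hx w hw
      have : ρ u⁻¹ w = w := by
        rw [← h4 w hw, ← rep_mul_apply, inv_mul_cancel, map_one, End.one_apply, h4 w hw]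
      rw [rep_mul_apply, rep_mul_apply, this, h4 _ (hWQ x hx w hw)]
    refine ⟨huQ, fun x hx t ht => ?_⟩
    obtain ⟨w, hw, hw0⟩ := Submodule.exists_mem_ne_zero_of_ne_bot h0
    refine smul_left_injective K hw0 ?_
    simp only
    rw [← hw _ (commutator_mem_center hcl (conj_mem_of_mem_normalizer huQ hx) ht),
      ← hw _ (commutator_mem_center hcl hx ht), commutatorElement_def, commutatorElement_def,
      show (u * x * u⁻¹)⁻¹ = u * x⁻¹ * u⁻¹ by group]
    have a1 := hWQ _ (Q.inv_mem ht) w hw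
    rw [rep_mul_apply, rep_mul_apply, rep_mul_apply ρ (u * x * u⁻¹), h5 _ (Q.inv_mem hx) _ a1,
      h5 x hx _ (hWQ t ht _ (hWQ _ (Q.inv_mem hx) _ a1)), rep_mul_apply, rep_mul_apply, rep_mul_apply]

theorem dChief_odd {p : ℕ} [Fact p.Prime] (h2 : p ≠ 2) (e : ℕ) : DChief.{u} p (e + 1) e := by
  induction e with
  | zero => exact dChief_zero p
  | succ e ih =>
    intro G _ _ hG P M _ hM hmin hyp
    haveI : Module.Finite (ZMod p) (EA hM) := Module.Finite.of_finite
    exact ih.of_dS _ _ rfl (H53.isPSolvable_quotient hG _)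
      (P.mapSurjective (QuotientGroup.mk'_surjective _))
      (dS_eq_bot (ρ := baseRep (centRep hM) (AlgebraicClosure (ZMod p))) h2
        (fun a b h => centRep_injective hM (baseChangeHom_injective _ h))
        (H53.isPSolvable_quotient hG _) (pCore_quotient_centralizer_eq_bot
          (H3.IsElementaryAbelian.isPGroup' hM) hmin)
        (P.mapSurjective (QuotientGroup.mk'_surjective _)).isPGroup' (RKil_baseRep hM hyp _))

theorem pLengthLE_of_dS {p : ℕ} [hp : Fact p.Prime] (h2 : p ≠ 2) (hG : IsPSolvable p G)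
    (P : Sylow p G) {d : ℕ} (h : dS (P : Subgroup G) d = ⊥) : PLengthLE p d G := by
  cases d with
  | zero =>
    refine pLengthLE_zero_iff.2 ((Nat.Prime.coprime_iff_not_dvd hp.out).2 fun h1 =>
      P.not_dvd_index ?_).symm
    rwa [show (P : Subgroup G) = ⊥ from h, index_bot]
  | succ e => exact (dChief_odd h2 e).of_dS _ G rfl hG P h

end Cfsg.Agent.H36.DerOdd
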