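import Mathlib
import Cfsg.Agent.H4.HHCore
import Cfsg.Agent.H3.Fitting
import Cfsg.Agent.H3.Frattini

/-! Elements of an odd `p`-group acting irreducibly on their commutator space. -/

set_option autoImplicit false
set_option linter.unusedSectionVars false
set_option linter.unusedVariables false
set_option linter.style.haveILetI false

namespace Cfsg.Agent.H36.Exc

open Cfsg Subgroup
open scoped commutatorElement

variable {S : Type*} [Group S] (A : Type*) [AddCommGroup A] [DistribMulAction S A]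

/-- The commutator space. -/
def cm (γ : S) : AddSubgroup A where
  carrier := {x | ∃ w : A, γ • w - w = x}
  zero_mem' := ⟨0, by simp⟩
  add_mem' := by
    rintro _ _ ⟨a, rfl⟩ ⟨b, rfl⟩
    exact ⟨a + b, by rw [smul_add]; abel⟩
  neg_mem' := by
    rintro _ ⟨a, rfl⟩
    exact ⟨-a, by rw [smul_neg]; abel⟩

/-- `a` is irreducible on its commutator space. -/
def Good (a : S) : Prop :=
  ∀ U : AddSubgroup A, U ≤ cm A a → (∀ x ∈ U, a • x ∈ U) → U = ⊥ ∨ U = cm A a

/-- The stabilizer of a subgroup. -/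
def stb [Finite S] (F : AddSubgroup A) : Subgroup S where
  carrier := {g | ∀ x ∈ F, g • x ∈ F}
  one_mem' := by simp
  mul_mem' := fun {a b} ha hb x hx => by rw [mul_smul]; exact ha _ (hb x hx)
  inv_mem' := fun {a} ha x hx => by
    have : ∀ n : ℕ, ∀ x ∈ F, a ^ n • x ∈ F := fun n => by
      induction n with
      | zero => simp
      | succ n ih => intro x hx; rw [pow_succ, mul_smul]; exact ih _ (ha x hx)
    have e : a⁻¹ = a ^ (orderOf a - 1) := by
      rw [inv_eq_iff_mul_eq_one, ← pow_succ', Nat.sub_add_cancel (orderOf_pos a), pow_orderOf_eq_one]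
    rw [e]; exact this _ x hx

/-- The pointwise stabilizer of a subgroup. -/
def fx (F : AddSubgroup A) : Subgroup S where
  carrier := {g | ∀ x ∈ F, g • x = x}
  one_mem' := by simp
  mul_mem' := fun {a b} ha hb x hx => by rw [mul_smul, hb x hx, ha x hx]
  inv_mem' := fun {a} ha x hx => by rw [inv_smul_eq_iff, ha x hx]

/-- The elements acting trivially modulo a subgroup. -/
def tv [Finite S] (F : AddSubgroup A) : Subgroup S where
  carrier := {g | ∀ x : A, g • x - x ∈ F}
  one_mem' := by simp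
  mul_mem' := fun {a b} ha hb x => by
    have := F.add_mem (ha (b • x)) (hb x)
    rwa [sub_add_sub_cancel, ← mul_smul] at this
  inv_mem' := fun {a} ha x => by
    have := F.neg_mem (ha (a⁻¹ • x))
    rwa [smul_inv_smul, neg_sub] at this

variable {A} {p : ℕ}

theorem mem_cm (γ : S) (w : A) : γ • w - w ∈ cm A γ := ⟨w, rfl⟩

theorem smul_mem_cm {γ g : S} (h : Commute g γ) {x : A} (hx : x ∈ cm A γ) : g • x ∈ cm A γ := by
  obtain ⟨w, rfl⟩ := hx
  exact ⟨g • w, by rw [smul_sub, ← mul_smul, ← mul_smul, h.eq]⟩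

theorem mem_cm_conj {γ g : S} {x : A} : x ∈ cm A (g * γ * g⁻¹) ↔ g⁻¹ • x ∈ cm A γ := by
  constructor
  · rintro ⟨w, rfl⟩
    exact ⟨g⁻¹ • w, by rw [smul_sub, ← mul_smul, ← mul_smul]; congr 2; group⟩
  · rintro ⟨w, h⟩
    refine ⟨g • w, ?_⟩
    rw [eq_inv_smul_iff] at h
    rw [← h, smul_sub, ← mul_smul, ← mul_smul, inv_mul_cancel_right]

theorem card_cm_conj (γ g : S) : Nat.card (cm A (g * γ * g⁻¹)) = Nat.card (cm A γ) :=
  Nat.card_congr
    { toFun := fun x => ⟨g⁻¹ • x.1, mem_cm_conj.mp x.2⟩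
      invFun := fun x => ⟨g • x.1, mem_cm_conj.mpr (by rw [inv_smul_smul]; exact x.2)⟩
      left_inv := fun x => Subtype.ext (smul_inv_smul g x.1)
      right_inv := fun x => Subtype.ext (inv_smul_smul g x.1) }

theorem Good.conj {a : S} (h : Good A a) (g : S) : Good A (g * a * g⁻¹) := by
  intro U hU ha
  rcases h (U.comap (DistribMulAction.toAddMonoidHom A g)) (fun x hx => by
      have := mem_cm_conj.mp (hU hx)
      rwa [DistribMulAction.toAddMonoidHom_apply, inv_smul_smul] at this) (fun x hx => by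
      have := ha _ hx
      rw [DistribMulAction.toAddMonoidHom_apply, ← mul_smul, inv_mul_cancel_right, mul_smul] at this
      exact this) with e | e
  · left
    rw [eq_bot_iff]
    intro x hx
    have : g⁻¹ • x ∈ U.comap (DistribMulAction.toAddMonoidHom A g) := by
      rw [AddSubgroup.mem_comap, DistribMulAction.toAddMonoidHom_apply, smul_inv_smul]; exact hx
    rw [e, AddSubgroup.mem_bot, smul_eq_zero_iff_eq] at this
    exact this
  · right
    refine le_antisymm hU fun x hx => ?_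
    have := e.ge (mem_cm_conj.mp hx)
    rwa [AddSubgroup.mem_comap, DistribMulAction.toAddMonoidHom_apply, smul_inv_smul] at this

theorem tors_pow (hA : ∀ x : A, p • x = 0 → x = 0) (k : ℕ) : ∀ x : A, p ^ k • x = 0 → x = 0 := by
  induction k with
  | zero => simp
  | succ k ih => intro x h; rw [pow_succ, mul_smul] at h; exact hA _ (ih _ h)

theorem fix_cm (hA : ∀ x : A, p • x = 0 → x = 0) {γ : S} {k : ℕ} (hγ : γ ^ p ^ k = 1) {x : A}
    (hx : x ∈ cm A γ) (h : γ • x = x) : x = 0 := by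
  obtain ⟨w, rfl⟩ := hx
  refine tors_pow hA k _ ?_
  have h1 : ∀ n : ℕ, n • (γ • w - w) = γ ^ n • w - w := fun n => by
    induction n with
    | zero => simp
    | succ n ih =>
      have : γ ^ (n + 1) • w = γ • (n • (γ • w - w) + w) := by
        rw [ih, sub_add_cancel, pow_succ', mul_smul]
      rw [this, smul_add, smul_comm, h, succ_nsmul]; abel
  rw [h1, hγ, one_smul, sub_self]

variable [Finite S] [Finite A] [hp : Fact p.Prime]

theorem mem_tv_cm (γ : S) : γ ∈ tv A (cm A γ) := fun x => mem_cm γ x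

theorem cm_le_of_mem_zpowers {a y : S} (h : y ∈ zpowers a) : cm A y ≤ cm A a := by
  rintro _ ⟨w, rfl⟩
  exact zpowers_le.mpr (mem_tv_cm a) h w

theorem eq_one_of [FaithfulSMul S A] (hA : ∀ x : A, p • x = 0 → x = 0) {δ : S} {k : ℕ}
    (hδ : δ ^ p ^ k = 1) {F : AddSubgroup A} (h1 : δ ∈ tv A F) (h2 : δ ∈ fx A F) : δ = 1 :=
  eq_of_smul_eq_smul (α := A) fun x => by
    rw [one_smul, ← sub_eq_zero]
    exact fix_cm hA hδ (mem_cm δ x) (h2 _ (h1 x))

theorem cm_conj_of_mem_stb {a u : S} (h : u ∈ stb A (cm A a)) : cm A (u * a * u⁻¹) = cm A a := by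
  ext x
  rw [mem_cm_conj]
  exact ⟨fun hx => by simpa using h _ hx, fun hx => inv_mem h x hx⟩

theorem mem_stb_of_cm_conj {a u : S} (h : cm A (u * a * u⁻¹) = cm A a) : u ∈ stb A (cm A a) :=
  fun x hx => h.le (mem_cm_conj.mpr (by rwa [inv_smul_smul]))

/-- Either equal or orthogonal commutator spaces. -/
def EO (A : Type*) [AddCommGroup A] [DistribMulAction S A] (a b : S) : Prop :=
  cm A a = cm A b ∨ b ∈ fx A (cm A a)

theorem mem_stb_of_small (hA : ∀ x : A, p • x = 0 → x = 0) (h2 : p ≠ 2) {a u : S} {k l : ℕ}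
    (ha : a ^ p ^ k = 1) (hu : u ^ p ^ l = 1)
    (h : ∀ i j : ℕ, EO A (u ^ i * a * (u ^ i)⁻¹) (u ^ j * a * (u ^ j)⁻¹))
    (hc : Nat.card (cm A u) < Nat.card (cm A a) ^ 2) : u ∈ stb A (cm A a) := by
  by_contra hu1
  have hu2 : u ^ 2 ∉ stb A (cm A a) := fun h => hu1 (zpowers_le.mpr h (mem_zpowers_pow_iff.mpr
    (Nat.Coprime.coprime_dvd_right (orderOf_dvd_of_pow_eq_one hu)
      (((Nat.coprime_primes Nat.prime_two hp.out).mpr h2.symm).pow_right l))))
  have h10 : a ∈ fx A (cm A (u * a * u⁻¹)) := by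
    simpa using (h 1 0).resolve_left fun e => hu1 (mem_stb_of_cm_conj (by simpa using e))
  have h20 : a ∈ fx A (cm A (u ^ 2 * a * (u ^ 2)⁻¹)) := by
    simpa using (h 2 0).resolve_left fun e => hu2 (mem_stb_of_cm_conj (by simpa using e))
  refine hc.not_ge ?_
  rw [sq, ← Nat.card_prod]
  refine Nat.card_le_card_of_injective (fun f => (⟨_, mem_cm u (f.1.1 + u • f.2.1)⟩ : cm A u)) ?_
  intro f g e
  have e1 : u • (f.1.1 + u • f.2.1) - (f.1.1 + u • f.2.1) =
    u • (g.1.1 + u • g.2.1) - (g.1.1 + u • g.2.1) := congrArg Subtype.val e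
  set x : cm A a := f.1 - g.1 with hx
  set y : cm A a := f.2 - g.2 with hy
  have e2 : (x : A) = u • ((x - y : cm A a) : A) + u ^ 2 • (y : A) := by
    simp only [hx, hy, AddSubgroup.coe_sub, smul_sub, smul_add, sq, mul_smul] at e1 ⊢
    rw [← sub_eq_zero] at e1 ⊢
    rw [← neg_eq_zero, ← e1]; abel
  have m1 : ∀ z : cm A a, a • u • (z : A) = u • (z : A) := fun z =>
    h10 _ (mem_cm_conj.mpr (by rw [inv_smul_smul]; exact z.2))
  have m2 : ∀ z : cm A a, a • u ^ 2 • (z : A) = u ^ 2 • (z : A) := fun z =>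
    h20 _ (mem_cm_conj.mpr (by rw [inv_smul_smul]; exact z.2))
  have x0 : (x : A) = 0 := fix_cm hA ha x.2 (by rw [e2, smul_add, m1, m2])
  have y0 : (y : A) = 0 := by
    refine fix_cm hA ha y.2 ?_
    rw [show ((x - y : cm A a) : A) = (x : A) - y from rfl, x0, zero_sub, smul_neg, sq, mul_smul, eq_comm, neg_add_eq_zero,
      smul_left_cancel_iff] at e2
    rw [e2, m1]
  exact Prod.ext (sub_eq_zero.mp (Subtype.ext x0)) (sub_eq_zero.mp (Subtype.ext y0))

theorem eo_of_mem_stb {a b : S} (hb : Good A b) (hc : Nat.card (cm A a) = Nat.card (cm A b))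
    (h : b ∈ stb A (cm A a)) : EO A a b := by
  rcases hb (cm A a ⊓ cm A b) inf_le_right (fun x hx => ⟨h x hx.1, smul_mem_cm (Commute.refl b) hx.2⟩)
    with e | e
  · right
    intro x hx
    rw [← sub_eq_zero, ← AddSubgroup.mem_bot, ← e]
    exact ⟨(cm A a).sub_mem (h x hx) hx, mem_cm b x⟩
  · left
    exact (AddSubgroup.eq_of_le_of_card_ge (inf_eq_right.mp e) hc.le).symm

theorem eo_of_good (hA : ∀ x : A, p • x = 0 → x = 0) (h2 : p ≠ 2) (n : ℕ) : ∀ D : Subgroup S,
    Nat.card D = n → IsPGroup p D → ∀ a ∈ D, ∀ b ∈ D, Good A a → Good A b →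
      Nat.card (cm A a) = Nat.card (cm A b) → EO A a b := by
  induction n using Nat.strong_induction_on with
  | _ n ih =>
  intro D hn hD a ha b hb hga hgb hc
  by_cases h0 : cm A a = ⊥
  · exact Or.inr fun x hx => by rw [h0, AddSubgroup.mem_bot] at hx; rw [hx, smul_zero]
  refine eo_of_mem_stb hgb hc ?_
  by_cases hz : zpowers (⟨a, ha⟩ : D) = ⊤
  · obtain ⟨i, hi⟩ : (⟨b, hb⟩ : D) ∈ zpowers (⟨a, ha⟩ : D) := hz ▸ mem_top _
    rw [← show a ^ i = b from congrArg Subtype.val hi]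
    exact zpow_mem (show a ∈ stb A (cm A a) from fun x hx => smul_mem_cm (Commute.refl a) hx) i
  obtain ⟨M, hM, haM⟩ := H3.exists_coatom_ge hz
  haveI := hD.isNilpotent
  haveI := H3.coatom_normal_of_isNilpotent hM
  obtain ⟨k, hk⟩ := hD ⟨a, ha⟩
  obtain ⟨l, hl⟩ := hD ⟨b, hb⟩
  have hm : ∀ i : ℕ, b ^ i * a * (b ^ i)⁻¹ ∈ M.map D.subtype := fun i =>
    ⟨_, (inferInstance : M.Normal).conj_mem _ (haM (mem_zpowers _)) (⟨b, hb⟩ ^ i), rfl⟩
  refine mem_stb_of_small hA h2 (congrArg Subtype.val hk) (congrArg Subtype.val hl) (fun i j =>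
    ih _ ?_ (M.map D.subtype) rfl ((hD.to_subgroup M).map _) _ (hm i) _ (hm j) (hga.conj _) (hga.conj _)
      (by rw [card_cm_conj, card_cm_conj])) ?_
  · rw [← hn]
    exact H4.HH.card_lt_of_lt (lt_of_le_of_ne (map_subtype_le M) fun e => hM.1 (by
      rw [← comap_map_eq_self_of_injective D.subtype_injective M, e, comap_subtype, subgroupOf_self]))
  · have := (AddSubgroup.one_lt_card_iff_ne_bot _).mpr h0
    rw [← hc]; nlinarith

theorem central_on (hA : ∀ x : A, p • x = 0 → x = 0) {D : Subgroup S} (hD : IsPGroup p D) {a y : S}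
    (ha : a ∈ D) (hga : Good A a) (hy : y ∈ zpowers a) (hyp : y ^ p = 1) {u : S} (huD : u ∈ D)
    (hu : u ∈ stb A (cm A a)) : ⁅u, y⁆ ∈ fx A (cm A a) := by
  classical
  set F := cm A a with hF
  set N := D ⊓ stb A F with hN
  have hNp : IsPGroup p N := hD.to_inf_left
  haveI := hNp.isNilpotent
  have haN : a ∈ N := ⟨ha, fun x hx => smul_mem_cm (Commute.refl a) hx⟩
  have hyN : y ∈ N := zpowers_le.mpr haN hy
  haveI hKn : ((fx A F).subgroupOf N).Normal := ⟨fun k hk g x hx => by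
    change ((g : S) * k * (g : S)⁻¹) • x = x
    have := hk _ ((stb A F).inv_mem g.2.2 x hx)
    change (k : S) • _ = _ at this
    rw [mul_smul, mul_smul, this, smul_inv_smul]⟩
  let π := QuotientGroup.mk' ((fx A F).subgroupOf N)
  have act : ∀ g h : N, π g = π h → ∀ x ∈ F, (g : S) • x = (h : S) • x := fun g h e x hx => by
    have := (QuotientGroup.eq.mp e : g⁻¹ * h ∈ _) x hx
    change ((g : S)⁻¹ * h) • x = x at this
    rw [mul_smul, inv_smul_eq_iff] at this
    exact this.symm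
  change (⁅(⟨u, huD, hu⟩ : N), (⟨y, hyN⟩ : N)⁆) ∈ (fx A F).subgroupOf N
  rw [← QuotientGroup.eq_one_iff]
  change π _ = 1
  rw [map_commutatorElement, commutatorElement_eq_one_iff_mul_comm]
  by_contra hne
  haveI : Nontrivial (N ⧸ (fx A F).subgroupOf N) := nontrivial_of_ne _ _ hne
  have hq := hNp.to_quotient ((fx A F).subgroupOf N)
  obtain ⟨z', hz'⟩ := exists_prime_orderOf_dvd_card' (G := center (N ⧸ (fx A F).subgroupOf N)) p (by
    haveI := hq.center_nontrivial
    obtain ⟨k, hk0, hk⟩ := (hq.to_subgroup (center _)).nontrivial_iff_card.mp inferInstance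
    rw [hk]; exact dvd_pow_self p hk0.ne')
  obtain ⟨z, hz⟩ := QuotientGroup.mk'_surjective _ z'.1
  have hzc : ∀ g, Commute g (π z) := fun g => by
    rw [show π z = z'.1 from hz]; exact mem_center_iff.mp z'.2 g
  have hzo : orderOf (π z) = p := by rw [show π z = z'.1 from hz, orderOf_coe, hz']
  set Y : N := ⟨y, hyN⟩
  have hYa : Commute (π ⟨a, haN⟩) (π Y) := by
    obtain ⟨i, rfl⟩ := hy
    exact ((Commute.refl (⟨a, haN⟩ : N)).zpow_right i).map π
  have hYp : π Y ^ p = 1 := by rw [← map_pow, show Y ^ p = 1 from Subtype.ext hyp, map_one]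
  have nrm : ∀ w : N, π w ≠ 1 → Commute (π ⟨a, haN⟩) (π w) → π w ^ p = 1 → ∀ x ∈ F,
      ∑ i ∈ Finset.range p, ((w ^ i : N) : S) • x = 0 := by
    intro w hw1 hwa hwp x hx
    let U : AddSubgroup A :=
      { carrier := {x | x ∈ F ∧ (w : S) • x = x}
        zero_mem' := ⟨F.zero_mem, smul_zero _⟩
        add_mem' := fun {s t} hs ht => ⟨F.add_mem hs.1 ht.1, by rw [smul_add, hs.2, ht.2]⟩
        neg_mem' := fun {s} hs => ⟨F.neg_mem hs.1, by rw [smul_neg, hs.2]⟩ }
    rcases hga U (fun _ h => h.1) (fun s hs => ⟨haN.2 s hs.1, by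
      have := act (⟨a, haN⟩ * w) (w * ⟨a, haN⟩) (by rw [map_mul, map_mul, hwa.eq]) s hs.1
      rw [coe_mul, coe_mul, mul_smul, mul_smul, hs.2] at this
      exact this.symm⟩) with e | e
    · rw [← AddSubgroup.mem_bot, ← e]
      refine ⟨sum_mem fun i _ => (w ^ i).2.2 x hx, ?_⟩
      have h1 := Finset.sum_range_succ (fun i => ((w ^ i : N) : S) • x) p
      rw [Finset.sum_range_succ', act (w ^ p) (w ^ 0) (by rw [map_pow, hwp, pow_zero, map_one]) x hx,
        add_left_inj] at h1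
      rw [Finset.smul_sum]
      refine Eq.trans (Finset.sum_congr rfl fun i _ => ?_) h1
      rw [pow_succ', coe_mul, mul_smul]
    · exact absurd ((QuotientGroup.eq_one_iff w).mpr
        (show (w : S) ∈ fx A F from fun s hs => (e.ge hs).2)) hw1
  have hF0 : ∀ x ∈ F, x = 0 := by
    intro x hx
    apply hA
    have h1 : ∑ i ∈ Finset.range p, ∑ k ∈ Finset.range p, (((Y * z ^ i) ^ k : N) : S) • x = 0 := by
      refine Finset.sum_eq_zero fun i _ => nrm _ (fun e => hne ?_) ?_ ?_ x hx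
      · rw [map_mul, map_pow] at e
        rw [eq_inv_of_mul_eq_one_left e]
        exact ((hzc _).pow_right i).inv_right
      · rw [map_mul, map_pow]; exact hYa.mul_right ((hzc _).pow_right i)
      · rw [map_mul, map_pow, ((hzc _).pow_right i).mul_pow, hYp, one_mul, ← pow_mul, mul_comm, pow_mul,
          ← hzo, pow_orderOf_eq_one, one_pow]
    rw [Finset.sum_comm, Finset.sum_eq_single_of_mem 0 (Finset.mem_range.mpr hp.out.pos)] at h1
    · simpa using h1
    · intro k hk hk0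
      have h3 := nrm (z ^ k) (by
        rw [map_pow]
        exact pow_ne_one_of_lt_orderOf hk0 (hzo.symm ▸ Finset.mem_range.mp hk))
        (by rw [map_pow]; exact (hzc _).pow_right k)
        (by rw [map_pow, ← pow_mul, mul_comm, pow_mul, ← hzo, pow_orderOf_eq_one, one_pow]) x hx
      rw [← smul_zero ((Y ^ k : N) : S), ← h3, Finset.smul_sum]
      refine Finset.sum_congr rfl fun i _ => ?_
      rw [← mul_smul, ← coe_mul]
      refine act _ _ ?_ x hx
      simp only [map_pow, map_mul]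
      rw [((hzc _).pow_right i).mul_pow, ← pow_mul, ← pow_mul, mul_comm i]
  refine hne ?_
  rw [← map_mul, ← map_mul]
  exact QuotientGroup.eq.mpr fun x hx => by rw [hF0 x hx, smul_zero]

theorem commute_of_le [FaithfulSMul S A] (hA : ∀ x : A, p • x = 0 → x = 0) (h2 : p ≠ 2)
    {D : Subgroup S} (hD : IsPGroup p D) {a b y z : S} (ha : a ∈ D) (hb : b ∈ D) (hga : Good A a)
    (hy : y ∈ zpowers a) (hyp : y ^ p = 1) (hz : z ∈ zpowers b)
    (hc : Nat.card (cm A b) ≤ Nat.card (cm A a)) : ⁅z, y⁆ = 1 := by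
  have hzD : z ∈ D := zpowers_le.mpr hb hz
  have hyD : y ∈ D := zpowers_le.mpr ha hy
  obtain ⟨k, hk⟩ := hD ⟨a, ha⟩
  obtain ⟨l, hl⟩ := hD ⟨z, hzD⟩
  have hs : z ∈ stb A (cm A a) := by
    by_cases h0 : cm A a = ⊥
    · intro x hx
      rw [h0, AddSubgroup.mem_bot] at hx ⊢
      rw [hx, smul_zero]
    have hm : ∀ i : ℕ, z ^ i * a * (z ^ i)⁻¹ ∈ D := fun i =>
      mul_mem (mul_mem (pow_mem hzD i) ha) (inv_mem (pow_mem hzD i))
    refine mem_stb_of_small hA h2 (congrArg Subtype.val hk) (congrArg Subtype.val hl) (fun i j =>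
      eo_of_good hA h2 _ D rfl hD _ (hm i) _ (hm j) (hga.conj _) (hga.conj _)
        (by rw [card_cm_conj, card_cm_conj])) ?_
    have h1 := (AddSubgroup.one_lt_card_iff_ne_bot _).mpr h0
    have h3 := AddSubgroup.card_le_of_le (cm_le_of_mem_zpowers (A := A) hz)
    nlinarith
  obtain ⟨m, hm⟩ := hD ⁅(⟨z, hzD⟩ : D), (⟨y, hyD⟩ : D)⁆
  refine eq_one_of hA (congrArg Subtype.val hm) ?_ (central_on hA hD ha hga hy hyp hzD hs)
  have h1 : y ∈ tv A (cm A a) := zpowers_le.mpr (mem_tv_cm a) hy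
  refine mul_mem (fun x => ?_) (inv_mem h1)
  have := hs _ (h1 (z⁻¹ • x))
  rwa [smul_sub, smul_inv_smul, ← mul_smul, ← mul_smul] at this

theorem commute_of_good [FaithfulSMul S A] (hA : ∀ x : A, p • x = 0 → x = 0) (h2 : p ≠ 2)
    {D : Subgroup S} (hD : IsPGroup p D) {a b y z : S} (ha : a ∈ D) (hb : b ∈ D) (hga : Good A a)
    (hgb : Good A b) (hy : y ∈ zpowers a) (hyp : y ^ p = 1) (hz : z ∈ zpowers b) (hzp : z ^ p = 1) :
    ⁅y, z⁆ = 1 := by
  rcases le_total (Nat.card (cm A b)) (Nat.card (cm A a)) with h | h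
  · rw [← commutatorElement_inv, commute_of_le hA h2 hD ha hb hga hy hyp hz h, inv_one]
  · exact commute_of_le hA h2 hD hb ha hgb hz hzp hy h

theorem exists_sub_fix (hA : ∀ x : A, p • x = 0 → x = 0) {y : S} {k : ℕ} (hy : y ^ p ^ k = 1)
    {U : AddSubgroup A} (hU : U ≤ cm A y) (hyU : ∀ x ∈ U, y • x ∈ U) {x : A} (hx : y • x - x ∈ U) :
    ∃ u ∈ U, y • (x - u) = x - u := by
  have : Function.Surjective (fun u : U => (⟨y • u.1 - u.1, sub_mem (hyU _ u.2) u.2⟩ : U)) := by
    rw [← Finite.injective_iff_surjective]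
    intro s t e
    have e1 : y • s.1 - s.1 = y • t.1 - t.1 := congrArg Subtype.val e
    refine Subtype.ext (sub_eq_zero.mp (fix_cm hA hy (hU (sub_mem s.2 t.2)) ?_))
    rw [smul_sub, sub_eq_sub_iff_sub_eq_sub, e1]
  obtain ⟨u, hu⟩ := this ⟨_, hx⟩
  refine ⟨u, u.2, ?_⟩
  rw [smul_sub, sub_eq_sub_iff_sub_eq_sub]
  exact (congrArg Subtype.val hu).symm

theorem good_of_card (hA : ∀ x : A, p • x = 0 → x = 0) {a : S} {n : ℕ} (ha : a ^ p ^ (n + 1) = 1)
    (hfix : ∀ x : A, a ^ p ^ n • x = x → a • x = x)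
    (hc : Nat.card (cm A (a ^ p ^ n)) ≤ (p ^ (n + 1) - 1) ^ 2) : Good A a := by
  set y := a ^ p ^ n with hy
  have hyp : y ^ p ^ 1 = 1 := by rw [hy, ← pow_mul, ← pow_add, ha]
  have hay : Commute a y := (Commute.refl a).pow_right _
  have hF : cm A a = cm A y := by
    refine le_antisymm ?_ (cm_le_of_mem_zpowers (pow_mem (mem_zpowers a) _))
    rintro _ ⟨x, rfl⟩
    obtain ⟨u, hu, e⟩ := exists_sub_fix hA hyp le_rfl (fun x hx => smul_mem_cm (Commute.refl y) hx)
      (mem_cm y x)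
    have := hfix _ e
    rw [smul_sub, sub_eq_sub_iff_sub_eq_sub] at this
    rw [this]
    exact sub_mem (smul_mem_cm hay hu) hu
  have step : ∀ U U' : AddSubgroup A, U < U' → U' ≤ cm A y → a ∈ stb A U → a ∈ stb A U' →
      (p ^ (n + 1) + 1) * Nat.card U ≤ Nat.card U' := by
    intro U U' hlt hle hU hU'
    obtain ⟨f, hf, hfU⟩ := SetLike.exists_of_lt hlt
    have key : ∀ i, 0 < i → i < p ^ (n + 1) → a ^ i • f - f ∉ U := by
      intro i hi hi' h
      obtain ⟨m, hm⟩ := H4.HH.exists_pow_eq_of_lt ha hi hi'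
      have h1 : ∀ m : ℕ, (a ^ i) ^ m • f - f ∈ U := fun m => by
        induction m with
        | zero => simp
        | succ m ih =>
          have := add_mem (pow_mem hU i _ ih) h
          rwa [smul_sub, sub_add_sub_cancel, ← mul_smul, ← pow_succ'] at this
      obtain ⟨u, hu, e⟩ := exists_sub_fix hA hyp (hlt.le.trans hle) (pow_mem hU _) (hm ▸ h1 m)
      have := fix_cm hA hyp (hle (sub_mem hf (hlt.le hu))) e
      exact hfU (sub_eq_zero.mp this ▸ hu)
    have key2 : ∀ i j : Fin (p ^ (n + 1)), i < j → a ^ j.1 • f - a ^ i.1 • f ∉ U := by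
      intro i j hij h
      refine key (j - i) (Nat.sub_pos_of_lt hij) (by omega) ?_
      have := inv_mem (pow_mem hU i) _ h
      have e : a ^ j.1 = a ^ i.1 * a ^ (j.1 - i.1) := by
        rw [← pow_add, Nat.add_sub_cancel' (le_of_lt hij : i.1 ≤ j.1)]
      rwa [smul_sub, inv_smul_smul, ← mul_smul, e, inv_mul_cancel_left] at this
    let g : Option (Fin (p ^ (n + 1))) × U → U' := fun t => match t with
      | (none, u) => ⟨u, hlt.le u.2⟩
      | (some i, u) => ⟨a ^ i.1 • f + u, add_mem (pow_mem hU' _ f hf) (hlt.le u.2)⟩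
    have hnot : ∀ i : ℕ, a ^ i • f ∉ U := fun i h => hfU (by
      simpa using inv_mem (pow_mem hU i) _ h)
    have hg : Function.Injective g := by
      rintro ⟨_ | i, u⟩ ⟨_ | j, v⟩ e
      · rw [show u = v from Subtype.ext (congrArg Subtype.val e :)]
      · exact absurd (eq_sub_of_add_eq (congrArg Subtype.val e).symm ▸ sub_mem u.2 v.2) (hnot j)
      · exact absurd (eq_sub_of_add_eq (congrArg Subtype.val e) ▸ sub_mem v.2 u.2) (hnot i)
      · have e1 : a ^ i.1 • f + u = a ^ j.1 • f + v := congrArg Subtype.val e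
        rcases lt_trichotomy i j with h | rfl | h
        · refine absurd ?_ (key2 i j h)
          rw [show a ^ j.1 • f - a ^ i.1 • f = u - v by
            rw [sub_eq_sub_iff_add_eq_add, ← e1, add_comm]]
          exact sub_mem u.2 v.2
        · rw [show u = v from Subtype.ext (add_left_cancel e1)]
        · refine absurd ?_ (key2 j i h)
          rw [show a ^ i.1 • f - a ^ j.1 • f = v - u by
            rw [sub_eq_sub_iff_add_eq_add, e1, add_comm]]
          exact sub_mem v.2 u.2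
    simpa using Nat.card_le_card_of_injective g hg
  intro U hU haU
  rw [hF] at hU ⊢
  by_contra hn
  push Not at hn
  have h1 := step ⊥ U (bot_lt_iff_ne_bot.mpr hn.1) hU (fun x hx => by
    rw [AddSubgroup.mem_bot] at hx ⊢; rw [hx, smul_zero]) haU
  have h3 := step U _ (lt_of_le_of_ne hU hn.2) le_rfl haU (fun x hx => smul_mem_cm hay hx)
  rw [AddSubgroup.card_bot, mul_one] at h1
  have h4 : (p ^ (n + 1) - 1) ^ 2 < (p ^ (n + 1) + 1) ^ 2 := Nat.pow_lt_pow_left (by omega) two_ne_zero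
  have h5 := Nat.mul_le_mul_left (p ^ (n + 1) + 1) h1
  rw [← sq] at h5
  omega

end Cfsg.Agent.H36.Exc
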