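import Mathlib
import Cfsg.Agent.H4.DerLen
import Cfsg.Agent.H36.ExcGeo

/-! Exceptional `p`-elements for odd `p` and the Hall-Higman bound `l_p ≤ 2 e_p`. -/

set_option autoImplicit false
set_option linter.unusedSectionVars false
set_option linter.unusedVariables false
set_option linter.style.haveILetI false

namespace Cfsg.Agent.H36.Exc

open Cfsg Subgroup Module H4 H4.HH H4.Geo
open scoped commutatorElement

universe u

variable {K : Type*} [Field K] {V : Type*} [AddCommGroup V] [Module K V]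
variable {G : Type u} [Group G] {ρ : Representation K G V} {Q : Subgroup G} {β : Q →* Q →* Kˣ}
variable [IsAlgClosed K] [FiniteDimensional K V] [Finite G]

/-- A simple module for the non-degenerate part which is stable under `h`. -/
theorem exists_stable' {q : ℕ} [Fact q.Prime] (hq : (q : K) ≠ 0) (hQ : IsPGroup q Q)
    {W : Submodule K V} (hW : Simple ρ Q W) (hWβ : W ≤ formSub ρ Q β) {Q₀ : Subgroup Q}
    (hnd : ∀ t ∈ Q₀, (∀ s ∈ Q₀, β s t = 1) → β t = 1) {h : G}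
    (hhQ : h ∈ normalizer (Q : Set G)) (hh0 : ∀ t ∈ Q₀, cjA hhQ t ∈ Q₀) (hhW : h ∈ stab ρ W)
    {U : Submodule K V} (hUW : U ≤ W) (hU0 : U ≠ ⊥) (hU : Inv ρ (Q₀.map Q.subtype) U)
    (hhU : h ∈ stab ρ U) : ∃ W₀ ≤ U, Simple ρ (Q₀.map Q.subtype) W₀ ∧ h ∈ stab ρ W₀ := by
  classical
  obtain ⟨W₁, hW₁U, hW₁⟩ := exists_simple_le ρ hU0 hU
  haveI : Nontrivial W₁ := Submodule.nontrivial_iff_ne_bot.2 hW₁.1
  letI := Fintype.ofFinite Q₀
  have hmem : ∀ t : Q₀, ((t : Q) : G) ∈ stab ρ W₁ := fun t => hW₁.2.1 _ ⟨t, t.2, rfl⟩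
  let ι : Q₀ →* stab ρ W₁ := (Q.subtype.comp Q₀.subtype).codRestrict _ hmem
  let κ : Q₀ →* Q₀ := ((cjA hhQ).toMonoidHom.comp Q₀.subtype).codRestrict _ fun t => hh0 _ t.2
  let τ : Representation K Q₀ W₁ := (resRep ρ W₁).comp ι
  have hτ : ∀ (t : Q₀) (w : W₁), (τ t w : V) = ρ ((t : Q) : G) w := fun _ _ => rfl
  obtain ⟨b, hb⟩ := hW₁.finrank_eq_pow ρ (hQ.to_le (map_subtype_le Q₀))
  obtain ⟨S', hS0, hS'⟩ := exists_intertwiner τ (τ.comp κ) (by
    have e : ∀ t : Q₀, LinearMap.trace K W₁ (τ t⁻¹) • (τ.comp κ) t =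
        if β (t : Q) = 1 then (finrank K W₁ : K) • (1 : End K W₁) else 0 := by
      intro t
      split_ifs with ht
      · obtain ⟨c, hc0, hc⟩ := scal_of_form hW hWβ ht
        have e1 : τ t⁻¹ = c⁻¹ • 1 := rep_eq_smul_of τ (hτ t⁻¹) fun w hw => by
          rw [eq_inv_smul_iff₀ hc0, ← map_smul, ← hc w (hUW (hW₁U hw))]
          exact rep_inv_apply ρ _ w
        have e2 : (τ.comp κ) t = c • 1 := rep_eq_smul_of τ (hτ (κ t)) fun w hw => by
          change ρ (h * ((t : Q) : G) * h⁻¹) w = _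
          rw [rep_mul_apply, rep_mul_apply,
            hc _ ((inv_mem hhW : h⁻¹ ∈ stab ρ W) w (hUW (hW₁U hw))), map_smul, rep_apply_inv]
        rw [e1, e2, map_smul, LinearMap.trace_one, smul_smul, smul_eq_mul, mul_comm c⁻¹,
          mul_assoc, inv_mul_cancel₀ hc0, mul_one]
      · obtain ⟨s, hs, hs1⟩ : ∃ s ∈ Q₀, β s (t⁻¹ : Q₀) ≠ 1 := by
          by_contra h0
          push Not at h0
          have := hnd _ (t⁻¹).2 h0
          rw [coe_inv, map_inv, inv_eq_one] at this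
          exact ht this
        rw [trace_eq_zero_of_conj τ (s := ⟨s, hs⟩) (t := t⁻¹) (c := β s (t⁻¹ : Q₀))
          (fun e => hs1 (Units.ext e))
          (rep_eq_smul_of τ (hτ _) fun w hw => hWβ (hUW (hW₁U hw)) s _), zero_smul]
    rw [Finset.sum_congr rfl fun t _ => e t, ← Finset.sum_filter, Finset.sum_const,
      ← Nat.cast_smul_eq_nsmul K, smul_smul]
    refine smul_ne_zero (mul_ne_zero ?_ (by rw [hb, Nat.cast_pow]; exact pow_ne_zero _ hq))
      one_ne_zero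
    have := natCast_card_ne_zero_of_isPGroup hq
      ((hQ.to_subgroup Q₀).to_subgroup (β.comp Q₀.subtype).ker)
    rw [Nat.card_eq_fintype_card, Fintype.card_subtype] at this
    convert this using 3
    ext a
    simp [MonoidHom.mem_ker])
  obtain ⟨r, hr⟩ := LinearMap.exists_leftInverse_of_injective W₁.subtype W₁.ker_subtype
  have hr' : ∀ w : W₁, r w = w := fun w => LinearMap.congr_fun hr w
  set S : End K V := W₁.subtype ∘ₗ S' ∘ₗ r with hS
  have hSw : ∀ w : W₁, S w = S' w := fun w => by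
    rw [hS, LinearMap.comp_apply, LinearMap.comp_apply, hr']; rfl
  have htw : ∀ t ∈ Q₀.map Q.subtype, ∀ w ∈ W₁, S (ρ t w) = ρ (h * t * h⁻¹) (S w) := by
    rintro _ ⟨t, ht, rfl⟩ w hw
    have := congrArg Subtype.val (LinearMap.congr_fun (hS' ⟨t, ht⟩) ⟨w, hw⟩)
    rw [Module.End.mul_apply, Module.End.mul_apply, ← hSw, hτ] at this
    rw [hSw ⟨w, hw⟩]
    exact this
  have hN : h ∈ normalizer ((Q₀.map Q.subtype : Subgroup G) : Set G) :=
    mem_normalizer_of_conj_mem (by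
      rintro _ ⟨t, ht, rfl⟩
      exact ⟨cjA hhQ t, hh0 t ht, rfl⟩)
  refine exists_simple_stable ρ hW₁ hW₁U hhU S ?_ htw hN
  refine (hW₁.2.2 (W₁.map S) ?_ ?_).resolve_left fun h0 => hS0 ?_
  · rintro _ ⟨w, hw, rfl⟩
    rw [hSw ⟨w, hw⟩]; exact Submodule.coe_mem _
  · rintro t ht _ ⟨w, hw, rfl⟩
    refine ⟨ρ (h⁻¹ * t * h) w, hW₁.2.1 _ (inv_conj_mem_of_mem_normalizer hN ht) w hw, ?_⟩
    rw [htw _ (inv_conj_mem_of_mem_normalizer hN ht) w hw]
    congr 2
    group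
  · ext w
    have : S w ∈ W₁.map S := Submodule.mem_map_of_mem w.2
    rw [h0, Submodule.mem_bot, hSw] at this
    exact this

theorem card_le_finrank_sq' {q : ℕ} [Fact q.Prime] (hq : (q : K) ≠ 0) (hQ : IsPGroup q Q)
    {W₀ : Submodule K V} (hWβ : W₀ ≤ formSub ρ Q β) {Q₀ : Subgroup Q}
    (hnd : ∀ t ∈ Q₀, (∀ s ∈ Q₀, β s t = 1) → β t = 1)
    (hW₀ : Simple ρ (Q₀.map Q.subtype) W₀) (s : Finset Q) (hs : ∀ x ∈ s, x ∈ Q₀)
    (hinj : Set.InjOn β s) : s.card ≤ finrank K W₀ ^ 2 := by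
  classical
  have hmem : ∀ t : Q₀, ((t : Q) : G) ∈ stab ρ W₀ := fun t => hW₀.2.1 _ ⟨t, t.2, rfl⟩
  let ι : Q₀ →* stab ρ W₀ := (Q.subtype.comp Q₀.subtype).codRestrict _ hmem
  let τ : Representation K Q₀ W₀ := (resRep ρ W₀).comp ι
  have hτ : ∀ (t : Q₀) (w : W₀), (τ t w : V) = ρ ((t : Q) : G) w := fun _ _ => rfl
  obtain ⟨b, hb⟩ := hW₀.finrank_eq_pow ρ (hQ.to_le (map_subtype_le Q₀))
  have hli : LinearIndependent K fun x : s => τ ⟨x, hs x x.2⟩ := by
    rw [Fintype.linearIndependent_iff]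
    intro c hc j
    have e := congrArg (fun B => LinearMap.trace K W₀ (B * τ (⟨j, hs j j.2⟩ : Q₀)⁻¹)) hc
    simp only [Finset.sum_mul, map_sum, smul_mul_assoc, map_smul, zero_mul, map_zero,
      ← map_mul] at e
    rw [Finset.sum_eq_single j, mul_inv_cancel, map_one, LinearMap.trace_one, smul_eq_mul, hb,
      Nat.cast_pow] at e
    · exact (mul_eq_zero.1 e).resolve_right (pow_ne_zero _ hq)
    · intro i _ hij
      set t : Q₀ := ⟨i, hs i i.2⟩ * (⟨j, hs j j.2⟩ : Q₀)⁻¹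
      obtain ⟨u, hu, hu1⟩ : ∃ u ∈ Q₀, β u t ≠ 1 := by
        by_contra h0
        push Not at h0
        have := hnd _ t.2 h0
        change β ((i : Q) * (j : Q)⁻¹) = 1 at this
        rw [map_mul, map_inv, mul_inv_eq_one] at this
        exact hij (Subtype.ext (hinj i.2 j.2 this))
      rw [trace_eq_zero_of_conj τ (s := ⟨u, hu⟩) (t := t) (c := β u t)
          (fun e => hu1 (Units.ext e))
          (rep_eq_smul_of τ (hτ _) fun w hw => hWβ hw u _), smul_zero]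
    · simp
  have := hli.fintype_card_le_finrank
  rwa [Fintype.card_coe, Module.finrank_linearMap, ← sq] at this

variable {p : ℕ} [hp : Fact p.Prime] [CharP K p]

theorem sec_tors (β : Q →* Q →* Kˣ) : ∀ x : Sec β, p • x = 0 → x = 0 := by
  intro a ha
  obtain ⟨x, rfl⟩ := mk_surjective β a
  have h1 : β x ^ p = 1 := congrArg (fun a : Sec β => ((Additive.toMul a : β.range) : Q →* Kˣ)) ha
  rw [← mk_one, mk_eq_iff, map_one]
  ext y
  have h2 : ((β x y : Kˣ) : K) ^ p = 1 := by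
    have := congrArg (fun f : Q →* Kˣ => ((f y : Kˣ) : K)) h1
    simpa using this
  have h3 : (((β x y : Kˣ) : K) - 1) ^ p = 0 := by rw [sub_pow_char, h2, one_pow, sub_self]
  simpa using sub_eq_zero.mp (pow_eq_zero_iff hp.out.ne_zero |>.mp h3)

theorem sig_pow (halt : ∀ x, β x x = 1) {γ : MulAut Q} (h : Pres β γ) (n : ℕ) :
    sig halt (γ ^ n) = sig halt γ ^ n := by
  induction n with
  | zero => rw [pow_zero, pow_zero, sig_eq_one_iff halt Pres.one]; exact fun _ => rfl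
  | succ n ih => rw [pow_succ, pow_succ, sig_mul halt (h.pow n) h, ih]

/-- The structure of an exceptional element on one homogeneous component. -/
theorem exc_core {q : ℕ} [Fact q.Prime] (hpq : p ≠ q) (hQ : IsPGroup q Q)
    {W : Submodule K V} (hW : Simple ρ Q W) (hWβ : W ≤ formSub ρ Q β) (halt : ∀ x, β x x = 1)
    {h : G} {n : ℕ}
    (hh : h ^ p ^ (n + 1) = 1) (hhQ : h ∈ normalizer (Q : Set G)) (hhW : h ∈ stab ρ W)
    (hN : ∀ w ∈ W, ((ρ h - 1) ^ (p ^ (n + 1) - 1) : End K V) w = 0)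
    (hnt : sig halt (cjA hhQ ^ p ^ n) ≠ 1) : Good (Sec β) (sig halt (cjA hhQ)) := by
  classical
  have hq : (q : K) ≠ 0 := by
    rw [Ne, CharP.cast_eq_zero_iff K p]
    exact fun hd => hpq ((Nat.prime_dvd_prime_iff_eq hp.out Fact.out).1 hd)
  have hA := sec_tors (p := p) β
  have hP : Pres β (cjA hhQ) := pres_of_mem_stab hhQ hW.1 hWβ hhW
  have hap : cjA hhQ ^ p ^ (n + 1) = 1 := by
    rw [← cjA_pow]
    ext x
    rw [coe_cjA, hh]; simp
  have hs1 : sig halt (1 : MulAut Q) = 1 := (sig_eq_one_iff halt Pres.one).mpr fun _ => rfl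
  set γ := cjA hhQ ^ p ^ n with hγ
  have hγP : Pres β γ := hP.pow _
  have hγc : ∀ x : Q, (γ x : G) = h ^ p ^ n * x * (h ^ p ^ n)⁻¹ := fun x => by
    rw [hγ, ← cjA_pow, coe_cjA]
  have hγp : sig halt γ ^ p ^ 1 = 1 := by
    rw [← sig_pow halt hγP, hγ, ← pow_mul, ← pow_add, hap, hs1]
  let Q₀ : Subgroup Q :=
    { carrier := {x | mk β x ∈ cm (Sec β) (sig halt γ)}
      one_mem' := by simp only [Set.mem_setOf_eq, mk_one]; exact zero_mem _
      mul_mem' := fun {a b} ha hb => by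
        simp only [Set.mem_setOf_eq, mk_mul]; exact add_mem ha hb
      inv_mem' := fun {a} ha => by simp only [Set.mem_setOf_eq, mk_inv]; exact neg_mem ha }
  have hdiv : ∀ y : Q, γ y * y⁻¹ ∈ Q₀ := fun y => by
    change mk β _ ∈ cm (Sec β) (sig halt γ)
    rw [mk_mul, mk_inv, ← sig_smul_mk halt hγP, ← sub_eq_add_neg]
    exact mem_cm _ _
  have hfx : ∀ t ∈ Q₀, β (γ t) = β t → β t = 1 := fun t ht e => by
    have := fix_cm hA hγp ht (by rw [sig_smul_mk halt hγP, mk_eq_iff, e])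
    rwa [← mk_one, mk_eq_iff, map_one] at this
  have hnd' : ∀ t ∈ Q₀, (∀ s ∈ Q₀, β t s = 1) → β t = 1 := fun t ht h1 => by
    refine hfx t ht ?_
    ext y
    have := h1 _ (hdiv (γ⁻¹ y))
    rw [map_mul, map_inv, mul_inv_eq_one, MulAut.apply_inv_self] at this
    rw [hγP.apply, this]
  have hnd : ∀ t ∈ Q₀, (∀ s ∈ Q₀, β s t = 1) → β t = 1 := fun t ht h1 =>
    hnd' t ht fun s hs => by rw [form_swap halt, h1 s hs, inv_one]
  have horth : ∀ x, β (γ x) = β x → ∀ t ∈ Q₀, β x t = 1 := fun x hx t ht => by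
    obtain ⟨w, hw⟩ := ht
    obtain ⟨y, rfl⟩ := mk_surjective β w
    rw [sig_smul_mk halt hγP, sub_eq_add_neg, ← mk_inv, ← mk_mul, mk_eq_iff] at hw
    rw [form_swap halt, ← hw, map_mul, map_inv, MonoidHom.mul_apply, MonoidHom.inv_apply,
      form_swap halt x (γ y), ← hx, hγP, form_swap halt x y, mul_inv_cancel, inv_one]
  have hh0 : ∀ t ∈ Q₀, cjA hhQ t ∈ Q₀ := fun t ht => by
    change mk β _ ∈ cm (Sec β) (sig halt γ)
    rw [← sig_smul_mk halt hP]
    refine smul_mem_cm ?_ ht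
    rw [hγ, sig_pow halt hP]
    exact (Commute.refl _).pow_right _
  set Q₁ := Q₀.map Q.subtype with hQ₁
  have hQ₁Q : Q₁ ≤ Q := map_subtype_le Q₀
  have hN₁ : h ∈ normalizer (Q₁ : Set G) := mem_normalizer_of_conj_mem (by
    rintro _ ⟨t, ht, rfl⟩
    exact ⟨cjA hhQ t, hh0 t ht, rfl⟩)
  have hcent : ∀ W₀ ≤ W, Simple ρ Q₁ W₀ → h ∈ stab ρ W₀ → ∀ t ∈ Q₀,
      (t : G) ∈ centOn ρ W₀ {h ^ p ^ n} → β t = 1 := by
    intro W₀ hW₀W hW₀ hhW₀ t ht hc
    refine hfx t ht ?_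
    rw [← mul_inv_eq_one, ← map_inv, ← map_mul]
    refine hnd' _ (hdiv t) fun s hs => ?_
    have hzs : h ^ p ^ n ∈ stab ρ W₀ := pow_mem hhW₀ _
    have e0 : ∀ w ∈ W₀, ρ (γ t : G) w = ρ (t : G) w := fun w hw => by
      rw [hγc, rep_mul_apply, rep_mul_apply, ((mem_centOn_singleton ρ).1 hc).2 _
        ((inv_mem hzs : _ ∈ stab ρ W₀) w hw), rep_apply_inv]
    have hts : (t : G) ∈ stab ρ W₀ := hW₀.2.1 _ ⟨t, ht, rfl⟩
    have hss : (s : G) ∈ stab ρ W₀ := hW₀.2.1 _ ⟨s, hs, rfl⟩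
    have e1 : ∀ w ∈ W₀, ρ (γ t : G)⁻¹ w = ρ (t : G)⁻¹ w := fun w hw => by
      apply rep_injective ρ (γ t : G)
      rw [rep_apply_inv, e0 _ ((inv_mem hts : _ ∈ stab ρ W₀) w hw), rep_apply_inv]
    obtain ⟨w, hw, hw0⟩ := W₀.exists_mem_ne_zero_of_ne_bot hW₀.1
    have e2 := hWβ (hW₀W hw) (γ t) s
    have hw1 := (inv_mem hss : _ ∈ stab ρ W₀) w hw
    rw [commutatorElement_def, rep_mul_apply, rep_mul_apply, rep_mul_apply, e1 _ hw1,
      e0 _ (hss _ ((inv_mem hts : _ ∈ stab ρ W₀) _ hw1)), ← rep_mul_apply, ← rep_mul_apply,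
      ← rep_mul_apply, ← commutatorElement_def, hWβ (hW₀W hw) t s] at e2
    have e3 : β t s = β (γ t) s := Units.ext (smul_left_injective K hw0 e2)
    rw [map_mul, map_inv, MonoidHom.mul_apply, MonoidHom.inv_apply, e3, mul_inv_cancel]
  have hnt₀ : ¬ ∀ t ∈ Q₀, β t = 1 := fun h0 => hnt ((sig_eq_one_iff halt hγP).mpr fun x => by
    have := h0 _ (hdiv x)
    rwa [map_mul, map_inv, mul_inv_eq_one] at this)
  have hcrit : ∀ W₀ ≤ W, Simple ρ Q₁ W₀ → h ∈ stab ρ W₀ → ∀ s : ℕ,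
      (∀ w ∈ W₀, ((ρ h - 1) ^ s) w = 0) →
      p ^ (n + 1) - 1 ≤ s ∧ (s < p ^ (n + 1) → finrank K W₀ = p ^ (n + 1) - 1) := by
    intro W₀ hW₀W hW₀ hhW₀
    refine critical_sub ρ (natCast_card_ne_zero_of_isPGroup hq (hQ.to_le hQ₁Q)) hW₀ hN₁
      (fun hle => hnt₀ fun t ht => hcent W₀ hW₀W hW₀ hhW₀ t ht (hle ⟨t, ht, rfl⟩)) ?_ hh hhW₀
    rintro _ ⟨⟨t, ht, rfl⟩, hc⟩
    obtain ⟨c, hc0, hc⟩ := scal_of_form hW hWβ (hcent W₀ hW₀W hW₀ hhW₀ t ht hc)
    exact ⟨c, hc0, fun w hw => hc w (hW₀W hw)⟩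
  have hpos : 0 < p ^ (n + 1) := pow_pos hp.out.pos _
  obtain ⟨W₀, hW₀W, hW₀, hhW₀⟩ := exists_stable' hq hQ hW hWβ hnd hhQ hh0 hhW le_rfl hW.1
    (fun t ht => hW.2.1 t (hQ₁Q ht)) hhW
  have hdim := (hcrit W₀ hW₀W hW₀ hhW₀ _ fun w hw => hN w (hW₀W hw)).2 (by omega)
  suffices hfix : ∀ x, β (γ x) = β x → β (cjA hhQ x) = β x by
    refine good_of_card hA (n := n) (by rw [← sig_pow halt hP, hap, hs1]) (fun a ha => ?_) ?_
    · obtain ⟨x, rfl⟩ := mk_surjective β a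
      rw [← sig_pow halt hP, sig_smul_mk halt hγP, mk_eq_iff] at ha
      rw [sig_smul_mk halt hP, mk_eq_iff, hfix x ha]
    · rw [← sig_pow halt hP, ← hdim]
      letI := Fintype.ofFinite (cm (Sec β) (sig halt γ))
      choose r hr using mk_surjective β
      have hinj : Function.Injective fun a : cm (Sec β) (sig halt γ) => r a.1 := fun a b e =>
        Subtype.ext (by rw [← hr a.1, ← hr b.1]; exact congrArg (mk β) e)
      have := card_le_finrank_sq' hq hQ (hW₀W.trans hWβ) hnd hW₀ (Finset.univ.image fun a :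
        cm (Sec β) (sig halt γ) => r a.1) (by
          simp only [Finset.mem_image]
          rintro _ ⟨a, -, rfl⟩
          change mk β _ ∈ cm (Sec β) (sig halt γ)
          rw [hr]; exact a.2) (by
          simp only [Finset.coe_image]
          rintro _ ⟨a, -, rfl⟩ _ ⟨b, -, rfl⟩ e
          rw [← mk_eq_iff, hr, hr] at e
          simp only [e])
      rwa [Finset.card_image_of_injective _ hinj, Finset.card_univ, ← Nat.card_eq_fintype_card] at this
  intro x hx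
  -- `h` centralizes the fixed part
  let Ad : End K (End K V) := LinearMap.mulLeft K (ρ h) * LinearMap.mulRight K (ρ h⁻¹)
  have hAd : ∀ B, Ad B = ρ h * (B * ρ h⁻¹) := fun _ => rfl
  have hAdN : (Ad - 1) ^ p ^ (n + 1) = 0 := by
    rw [sub_one_pow_char_pow K p, sub_eq_zero, (LinearMap.commute_mulLeft_right _ _).mul_pow,
      LinearMap.pow_mulLeft, LinearMap.pow_mulRight, ← map_pow, ← map_pow, inv_pow, hh]
    ext; simp
  let good : End K V → Prop := fun B => (∀ w ∈ W, B w ∈ W) ∧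
    ∀ t ∈ Q₁, ∀ w ∈ W, B (ρ t w) = ρ t (B w)
  have hinvW : ∀ w ∈ W, ρ h⁻¹ w ∈ W := (inv_mem hhW : _ ∈ stab ρ W)
  have hδ : ∀ B w, ((Ad - 1) B) w = ρ h (B (ρ h⁻¹ w)) - B w := fun _ _ => rfl
  have hgood : ∀ B, good B → good ((Ad - 1) B) := fun B hB =>
    ⟨fun w hw => by
      rw [hδ]; exact W.sub_mem (hhW _ (hB.1 _ (hinvW w hw))) (hB.1 w hw), fun t ht w hw => by
      have e : ρ h⁻¹ (ρ t w) = ρ (h⁻¹ * t * h) (ρ h⁻¹ w) := by
        rw [rep_mul_apply, rep_mul_apply, rep_apply_inv]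
      rw [hδ, hδ, e, hB.2 _ (inv_conj_mem_of_mem_normalizer hN₁ ht) _ (hinvW w hw),
        hB.2 t ht w hw, map_sub, rep_mul_apply, rep_mul_apply, rep_apply_inv]⟩
  have hgood0 : good (ρ (x : G)) := ⟨hW.2.1 _ x.2, by
    rintro _ ⟨t, ht, rfl⟩ w hw
    exact comm_of_form hWβ (horth x hx t ht) (hW.2.1 _ t.2 _ (hW.2.1 _ x.2 w hw))⟩
  have hgoodj : ∀ j : ℕ, good (((Ad - 1) ^ j) (ρ (x : G))) := by
    intro j
    induction j with
    | zero => exact hgood0
    | succ j ih => rw [pow_succ', Module.End.mul_apply]; exact hgood _ ih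
  have hzero : ∀ w ∈ W, ((Ad - 1) (ρ (x : G))) w = 0 := by
    by_contra hne
    have hex : ∃ j : ℕ, ∀ w ∈ W, (((Ad - 1) ^ (j + 2)) (ρ (x : G))) w = 0 :=
      ⟨p ^ (n + 1), fun w _ => by rw [pow_add, hAdN]; simp⟩
    obtain ⟨j, hj, hj'⟩ : ∃ j : ℕ, (∀ w ∈ W, (((Ad - 1) ^ (j + 2)) (ρ (x : G))) w = 0) ∧
        ¬ ∀ w ∈ W, (((Ad - 1) ^ (j + 1)) (ρ (x : G))) w = 0 := by
      refine ⟨Nat.find hex, Nat.find_spec hex, ?_⟩
      rcases h0 : Nat.find hex with _ | j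
      · simpa using hne
      · exact Nat.find_min hex (by omega)
    set c := ((Ad - 1) ^ j) (ρ (x : G))
    have hc := hgoodj j
    have hc' := hgood _ hc
    rw [pow_succ', Module.End.mul_apply] at hj'
    rw [pow_succ', pow_succ', Module.End.mul_apply, Module.End.mul_apply] at hj
    set c' := (Ad - 1) c
    have f1 : ∀ w, ρ h (c w) = c (ρ h w) + c' (ρ h w) := fun w => by
      rw [hδ, rep_inv_apply]; abel
    have f2 : ∀ w ∈ W, ρ h (c' w) = c' (ρ h w) := fun w hw => by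
      have := hj _ (hhW w hw)
      rwa [hδ, rep_inv_apply, sub_eq_zero] at this
    have hT : ∀ w, (ρ h - 1) w = ρ h w - w := fun _ => rfl
    have f3 : ∀ r : ℕ, ∀ w ∈ W, ((ρ h - 1) ^ r) (c' w) = c' (((ρ h - 1) ^ r) w) := by
      intro r w hw
      induction r with
      | zero => rfl
      | succ r ih =>
        rw [pow_succ', Module.End.mul_apply, Module.End.mul_apply, ih, hT, hT,
          f2 _ (sub_one_pow_mem ρ hhW r hw), map_sub]
    have f4 : ∀ r : ℕ, ∀ w ∈ W, ((ρ h - 1) ^ (r + 1)) (c w) =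
        c (((ρ h - 1) ^ (r + 1)) w) + ((r + 1 : ℕ) : K) • ρ h (c' (((ρ h - 1) ^ r) w)) := by
      intro r w hw
      induction r with
      | zero =>
        simp only [zero_add, pow_one, pow_zero, Nat.cast_one, one_smul, Module.End.one_apply]
        rw [hT, hT, f1, map_sub, f2 w hw]; abel
      | succ r ih =>
        have hw1 := sub_one_pow_mem ρ hhW r hw
        have hw2 := sub_one_pow_mem ρ hhW (r + 1) hw
        rw [pow_succ' _ (r + 1), Module.End.mul_apply, Module.End.mul_apply, ih, map_add,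
          map_smul, hT, hT, hT, f1, map_sub, ← f2 _ hw2, ← map_sub, f2 _ hw1, ← map_sub, ← hT,
          ← Module.End.mul_apply (ρ h - 1), ← pow_succ', Nat.cast_succ (r + 1), add_smul,
          one_smul]
        abel
    have h2N : 2 ≤ p ^ (n + 1) :=
      hp.out.two_le.trans (Nat.le_self_pow (Nat.succ_ne_zero n) p)
    have f5 : ∀ w ∈ W, ((ρ h - 1) ^ (p ^ (n + 1) - 2) : End K V) (c' w) = 0 := fun w hw => by
      have e := f4 (p ^ (n + 1) - 2) w hw
      rw [show p ^ (n + 1) - 2 + 1 = p ^ (n + 1) - 1 by omega, hN w hw, hN _ (hc.1 w hw),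
        map_zero, zero_add, ← f3 _ w hw] at e
      have e1 : ((p ^ (n + 1) - 1 : ℕ) : K) ≠ 0 := by
        rw [Nat.cast_sub (by omega), Nat.cast_pow, pow_succ, CharP.cast_eq_zero K p]
        simp
      exact rep_injective ρ h (((smul_eq_zero.1 e.symm).resolve_left e1).trans (map_zero _).symm)
    obtain ⟨W', hW'U, hW', hhW'⟩ := exists_stable' hq hQ hW hWβ hnd hhQ hh0 hhW (U := W.map c')
      (by rintro _ ⟨w, hw, rfl⟩; exact hc'.1 w hw)
      (fun h0 => hj' fun w hw => by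
        have : c' w ∈ W.map c' := Submodule.mem_map_of_mem hw
        rwa [h0, Submodule.mem_bot] at this)
      (by
        rintro t ht _ ⟨w, hw, rfl⟩
        exact ⟨ρ t w, hW.2.1 t (hQ₁Q ht) w hw, hc'.2 t ht w hw⟩)
      (by
        rintro _ ⟨w, hw, rfl⟩
        exact ⟨ρ h w, hhW w hw, (f2 w hw).symm⟩)
    have := (hcrit W' (hW'U.trans (by rintro _ ⟨w, hw, rfl⟩; exact hc'.1 w hw)) hW' hhW' _
      fun w hw => by
        obtain ⟨w', hw', rfl⟩ := hW'U hw
        exact f5 w' hw').1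
    omega
  have e0 : ∀ w ∈ W, ρ (cjA hhQ x : G) w = ρ (x : G) w := fun w hw => by
    have := hzero w hw
    rwa [hδ, sub_eq_zero, ← rep_mul_apply, ← rep_mul_apply] at this
  have e1 : ∀ w ∈ W, ρ ((x⁻¹ * cjA hhQ x : Q) : G) w = w := fun w hw => by
    rw [coe_mul, rep_mul_apply, e0 w hw, coe_inv, rep_inv_apply]
  obtain ⟨w, hw, hw0⟩ := W.exists_mem_ne_zero_of_ne_bot hW.1
  have e2 : β (x⁻¹ * cjA hhQ x) = 1 := by
    ext y
    have e3 := hWβ hw (x⁻¹ * cjA hhQ x) y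
    rw [(commutator_mem_kerOn_iff ρ (hW.2.1 _ (x⁻¹ * cjA hhQ x).2) (hW.2.1 _ y.2)).2
      (fun w hw => by rw [e1 w hw, e1 _ (hW.2.1 _ y.2 w hw)]) w hw] at e3
    exact smul_left_injective K hw0 (e3.symm.trans (one_smul K w).symm)
  rw [map_mul, map_inv, inv_mul_eq_one] at e2
  exact e2.symm


theorem exc_local {q : ℕ} [Fact q.Prime] (hpq : p ≠ q) (hQ : IsPGroup q Q)
    (hcl : ⁅Q, Q⁆ ≤ centralizer (Q : Set G)) (hβ : formSub ρ Q β ≠ ⊥) {g : G} {e : ℕ}
    (hg : g ^ p ^ (e + 1) = 1) (hgQ : g ∈ normalizer (Q : Set G))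
    (hN : (ρ g - 1) ^ (p ^ (e + 1) - 1) = 0) :
    ∃ k ≤ e, Pres β (cjA hgQ ^ p ^ k) ∧ (sig (alt_of_ne_bot hβ) (cjA hgQ ^ p ^ e) = 1 ∨
      Good (Sec β) (sig (alt_of_ne_bot hβ) (cjA hgQ ^ p ^ k))) := by
  have hq : (q : K) ≠ 0 := by
    rw [Ne, CharP.cast_eq_zero_iff K p]
    exact fun hd => hpq ((Nat.prime_dvd_prime_iff_eq hp.out Fact.out).1 hd)
  obtain ⟨k, hk, W, hWβ, hW, hhW, π, hπ1, hπ2⟩ := exists_simple_indep' ρ
    (natCast_card_ne_zero_of_isPGroup hq hQ) hg hgQ hβ (inv_formSub hcl)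
    fun g' hg' S w hw hSw h0 htw => mem_stab_of_pres hg' (pres_of_twist hg' S hw hSw h0 htw)
  have hs := sub_one_pow_div_eq_zero ρ hhW hπ1 hπ2 (r := p ^ (e + 1) - 1) fun w _ => by
    rw [hN]; rfl
  have hk' : k ≠ e + 1 := by
    rintro rfl
    rw [Nat.div_eq_of_lt (Nat.sub_lt (pow_pos hp.out.pos _) one_pos)] at hs
    exact hW.1 ((Submodule.eq_bot_iff _).2 fun w hw => by simpa using hs w hw)
  obtain ⟨n, hn⟩ : ∃ n, e = k + n := ⟨e - k, by omega⟩
  have hdiv : (p ^ (e + 1) - 1) / p ^ k = p ^ (n + 1) - 1 := by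
    have h1 : 0 < p ^ k := pow_pos hp.out.pos _
    have h2 : 0 < p ^ (n + 1) := pow_pos hp.out.pos _
    rw [Nat.div_eq_iff h1, show e + 1 = (n + 1) + k by omega, pow_add p (n + 1) k, Nat.sub_mul,
      one_mul]
    have : p ^ k ≤ p ^ (n + 1) * p ^ k := Nat.le_mul_of_pos_left _ h2
    generalize p ^ (n + 1) * p ^ k = a at *
    generalize p ^ k = b at *
    omega
  rw [hdiv] at hs
  have hhQ : g ^ p ^ k ∈ normalizer (Q : Set G) := pow_mem hgQ _
  have hP : Pres β (cjA hhQ) := pres_of_mem_stab hhQ hW.1 hWβ hhW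
  have hz : cjA hgQ ^ p ^ e = cjA hhQ ^ p ^ n := by
    rw [cjA_pow, ← pow_mul, ← pow_add, hn]
  refine ⟨k, by omega, cjA_pow hgQ _ ▸ hP, ?_⟩
  by_cases h1 : sig (alt_of_ne_bot hβ) (cjA hgQ ^ p ^ e) = 1
  · exact Or.inl h1
  right
  rw [← cjA_pow]
  exact exc_core hpq hQ hW hWβ _ (by rw [← pow_mul, ← pow_add, ← add_assoc, ← hn, hg]) hhQ hhW hs
    (hz ▸ h1)

theorem commute_pow (h2 : p ≠ 2) (hρ : Function.Injective ρ) (hG : IsPSolvable p G)
    (hO : pCore p G = ⊥) {e : ℕ}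
    (hN : ∀ (g : G) (k : ℕ), g ^ p ^ k = 1 → (ρ g - 1) ^ (p ^ (e + 1) - 1) = 0)
    {P : Subgroup G} (hP : IsPGroup p P) {s t : G} (hs : s ∈ P) (ht : t ∈ P) :
    Commute (s ^ p ^ e) (t ^ p ^ e) := by
  have hN' : ∀ g ∈ P, (ρ g - 1) ^ (p ^ (e + 1) - 1) = 0 := fun g hg => by
    obtain ⟨k, hk⟩ := hP ⟨g, hg⟩
    exact hN g k (congrArg Subtype.val hk)
  have hg : ∀ g ∈ P, g ^ p ^ (e + 1) = 1 := fun g hg => hρ <| by
    rw [map_pow, map_one, ← sub_eq_zero, ← sub_one_pow_char_pow K p,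
      ← Nat.sub_add_cancel (Nat.one_le_pow (e + 1) p hp.out.pos), pow_succ, hN' g hg, zero_mul]
  have hcP : ⁅s ^ p ^ e, t ^ p ^ e⁆ ∈ P := commutator_le_self P
    (commutator_mem_commutator (pow_mem hs _) (pow_mem ht _))
  rw [← commutatorElement_eq_one_iff_commute, ← zpowers_eq_bot]
  refine eq_bot_of_forall_class_two hG hO hP le_rfl (zpowers_le.mpr hcP)
    fun Q q hqp hq hQ hcl hPQ _ => zpowers_le.mpr ?_
  haveI : Fact q.Prime := ⟨hqp⟩
  have hqK : (q : K) ≠ 0 := by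
    rw [Ne, CharP.cast_eq_zero_iff K p]
    exact fun hd => hq ((Nat.prime_dvd_prime_iff_eq hp.out hqp).1 hd).symm
  have hfc : ∀ g (hgP : g ∈ P), cjA (hPQ hgP) ^ p ^ e ∈ fixCenter Q := by
    intro g hgP x hx
    rw [← cjA_pow]
    by_contra hne
    rcases theoremB_of_isPGroup ρ hq.symm (Q := (center Q).map Q.subtype)
      ((hQ.to_subgroup _).map _) (hg g hgP)
      (H3.normalizer_le_normalizer_map_of_characteristic Q (center Q) (hPQ hgP))
      ⟨x, ⟨x, hx, rfl⟩, fun h => hne (Subtype.ext (by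
        rw [← map_mul, ← map_mul] at h
        rw [coe_cjA, hρ h, mul_inv_cancel_right]))⟩ _ (hN' g hgP) with h | ⟨-, -, -, -, -, -, -, h⟩
    · exact absurd h (not_le.2 (Nat.sub_lt (pow_pos hp.out.pos _) one_pos))
    · exact h inferInstance
  set ψ := Q.normalizerMonoidHom.comp (inclusion hPQ) with hψ
  have hR : IsPGroup p ψ.range := hP.of_surjective ψ.rangeRestrict ψ.rangeRestrict_surjective
  set c := ⁅cjA (hPQ hs) ^ p ^ e, cjA (hPQ ht) ^ p ^ e⁆ with hc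
  have hcc : c = cjA (hPQ hcP) := by
    rw [hc, ← cjA_pow, ← cjA_pow, cjA, cjA, cjA, ← map_commutatorElement]; rfl
  have hcf : c ∈ fixCenter Q := commutator_le_self _ (commutator_mem_commutator (hfc s hs) (hfc t ht))
  have h1 : c = 1 := by
    obtain ⟨k, hk⟩ := hR ⟨c, ⟨_, hcP⟩, hcc.symm⟩
    refine H7.aut_eq_one_of_fixes_of_mod hQ (H := center Q) c ?_ hcf fun x => ?_
    · exact Nat.Coprime.coprime_dvd_left (orderOf_dvd_of_pow_eq_one (congrArg Subtype.val hk))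
        (((Nat.coprime_primes hp.out hqp).2 hq.symm).pow_left k)
    refine mem_center_iff.2 fun y => ?_
    refine (commutatorElement_eq_one_iff_mul_comm.1 (eq_one_of_forall_form hρ
      (natCast_card_ne_zero_of_isPGroup hqK hQ) hcl fun β hβ => ?_)).symm
    have halt := alt_of_ne_bot hβ
    let σ : presGrp β →* Sp β := MonoidHom.mk' (fun γ => sig halt γ.1) fun a b => sig_mul halt a.2 b.2
    have hD : IsPGroup p ((ψ.range.subgroupOf (presGrp β)).map σ) := hR.comap_subtype.map _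
    have hs' := pres_of_fixCenter hcl hβ (hfc s hs)
    have ht' := pres_of_fixCenter hcl hβ (hfc t ht)
    have hσ : ∀ γ : presGrp β, σ γ = sig halt γ.1 := fun _ => rfl
    have h3 : sig halt c = ⁅sig halt (cjA (hPQ hs) ^ p ^ e), sig halt (cjA (hPQ ht) ^ p ^ e)⁆ := by
      have := map_commutatorElement σ ⟨_, hs'⟩ ⟨_, ht'⟩
      rwa [hσ, hσ, hσ] at this
    have h4 : sig halt c = 1 := by
      rw [h3]
      obtain ⟨k, hk, k1, k2 | k2⟩ := exc_local hq.symm hQ hcl hβ (hg s hs) (hPQ hs) (hN' s hs)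
      · rw [k2, commutatorElement_one_left]
      obtain ⟨l, hl, l1, l2 | l2⟩ := exc_local hq.symm hQ hcl hβ (hg t ht) (hPQ ht) (hN' t ht)
      · rw [l2, commutatorElement_one_right]
      have m1 : ∀ g (hgP : g ∈ P) k, k ≤ e → Pres β (cjA (hPQ hgP) ^ p ^ k) →
          sig halt (cjA (hPQ hgP) ^ p ^ k) ∈ (ψ.range.subgroupOf (presGrp β)).map σ ∧
          sig halt (cjA (hPQ hgP) ^ p ^ e) ∈ zpowers (sig halt (cjA (hPQ hgP) ^ p ^ k)) ∧
          sig halt (cjA (hPQ hgP) ^ p ^ e) ^ p = 1 := by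
        intro g hgP k hk h
        refine ⟨⟨⟨_, h⟩, ψ.range.pow_mem ⟨⟨g, hgP⟩, rfl⟩ _, rfl⟩, ?_, ?_⟩
        · obtain ⟨n, rfl⟩ := Nat.exists_eq_add_of_le hk
          rw [pow_add, pow_mul, sig_pow halt h]
          exact pow_mem (mem_zpowers _) _
        · rw [← sig_pow halt (pres_of_fixCenter hcl hβ (hfc g hgP)), ← pow_mul, ← pow_succ, ← cjA_pow,
            show cjA (pow_mem (hPQ hgP) (p ^ (e + 1))) = 1 by
              ext x
              rw [coe_cjA, hg g hgP]; simp]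
          exact (sig_eq_one_iff halt Pres.one).mpr fun _ => rfl
      obtain ⟨a1, a2, a3⟩ := m1 s hs k hk k1
      obtain ⟨b1, b2, b3⟩ := m1 t ht l hl l1
      exact commute_of_good (sec_tors (p := p) β) h2 hD a1 b1 k2 l2 a2 a3 b2 b3
    rw [map_mul, (sig_eq_one_iff _ (pres_of_fixCenter hcl hβ hcf)).1 h4 x, map_inv, inv_mul_cancel]
    rfl
  intro x hx
  have := congrArg (fun γ : MulAut Q => (γ ⟨x, hx⟩ : G)) (hcc.symm.trans h1)
  simp only [coe_cjA, MulAut.one_apply] at this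
  exact (mul_inv_eq_iff_eq_mul.1 this).symm

omit [CharP K p] in
theorem expLE_of_commute (h2 : p ≠ 2) (hG : IsPSolvable p G) {e : ℕ} (hE : ExpLE p (e + 1) G)
    (hc : ∀ (P : Sylow p G), ∀ s ∈ P, ∀ t ∈ P, Commute (s ^ p ^ e) (t ^ p ^ e)) :
    ExpLE p e (G ⧸ pPrimePCore p G) := by
  obtain ⟨N, _, h1, h3, h4⟩ := exists_reduced hG
  intro g k hg
  obtain ⟨g, rfl⟩ := QuotientGroup.mk'_surjective _ g
  obtain ⟨b, -, hb, j, hj⟩ := H51.exists_pelt_lift _ g hg
  rw [← hb, ← map_pow, QuotientGroup.mk'_apply, QuotientGroup.eq_one_iff, ← h4, mem_comap, map_pow]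
  by_contra hne
  obtain ⟨P, hP⟩ := (isPGroup_zpowers_of_pow_eq_one hj).exists_le_sylow
  set z := QuotientGroup.mk' N b with hz
  have hr : (EA.conjRep h1 z - 1) ^ (p ^ e + (p ^ e - 1)) = 0 := by
    ext v
    obtain ⟨u, hu, hu'⟩ := H3.pCore_le_sylow (P.mapSurjective (QuotientGroup.mk'_surjective N)) v.val_mem
    have h5 := (hc P _ (hP (mem_zpowers b)) _ (mul_mem hu (hP (mem_zpowers b)))).map (QuotientGroup.mk' N)
    rw [map_pow, map_pow, map_mul, hu', ← hz, EA.mul_pow_eq, ← LinearMap.sum_apply,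
      ← sub_one_pow_eq_geom_sum (ZMod p) p] at h5
    rw [pow_add, End.mul_apply, sub_one_pow_char_pow (ZMod p) p, LinearMap.sub_apply, ← map_pow,
      LinearMap.zero_apply, sub_eq_zero]
    apply EA.val_injective
    rw [EA.val_conjRep, End.one_apply, mul_inv_eq_iff_eq_mul]
    have := h5.eq
    rw [← mul_assoc] at this
    exact mul_right_cancel this
  have h6 : 3 ≤ p := by have := hp.out.two_le; omega
  have h7 : 0 < p ^ e := pow_pos hp.out.pos _
  rcases theoremB_pCore (H53.isPSolvable_quotient hG N) h1 h3 (n := e)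
    (by rw [hz, ← map_pow, hE b j hj, map_one]; exact one_mem _) hne _ hr with h | ⟨k, m, -, -, h, -, -, -, h', -⟩
  · rw [pow_succ] at h
    have := Nat.mul_le_mul_left (p ^ e) h6
    omega
  · subst h
    rw [Nat.mul_sub, ← pow_add, ← add_assoc, pow_succ, mul_one] at h'
    have := Nat.mul_le_mul_left (p ^ (k + m)) h6
    have := Nat.pow_le_pow_right hp.out.pos (Nat.le_add_right k m)
    omega

omit [CharP K p] in
theorem pLengthLE_two_mul (h2 : p ≠ 2) (e : ℕ) : ∀ (G : Type u) [Group G] [Finite G],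
    IsPSolvable p G → ExpLE p e G → PLengthLE p (2 * e) G := by
  induction e with
  | zero => intro G _ _ _ h; exact pLengthLE_zero_iff.2 (coprime_of_expLE_zero h)
  | succ e ih =>
    intro G _ _ hG hE
    obtain ⟨N, _, h1, h3, h4⟩ := exists_reduced hG
    have hG₁ := H53.isPSolvable_quotient hG N
    have hE₁ := hE.of_surjective (QuotientGroup.mk'_surjective N)
    have hG₂ := H53.isPSolvable_quotient hG₁ (pCore p _)
    haveI : Module.Finite (ZMod p) (EA h1) := Module.Finite.of_finite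
    refine (pLengthLE_succ_iff_of_ker (f := (QuotientGroup.mk' (pCore p (G ⧸ N))).comp
      (QuotientGroup.mk' N)) ((QuotientGroup.mk'_surjective _).comp (QuotientGroup.mk'_surjective _))
      (by rw [← MonoidHom.comap_ker, QuotientGroup.ker_mk', h4]) (2 * e + 1)).2
      ((pLengthLE_succ_iff _).2 (ih _ (H53.isPSolvable_quotient hG₂ _) (expLE_of_commute h2 hG₂
        (hE₁.of_surjective (QuotientGroup.mk'_surjective _)) fun P s hs t ht => ?_)))
    refine commute_pow (ρ := baseRep (EA.quotRep h1) (AlgebraicClosure (ZMod p))) h2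
      (fun a b h => EA.quotRep_injective h1 h3 (baseChangeHom_injective _ h)) hG₂
      (H3.pCore_quotient_pCore p _) (fun g k hg => ?_) P.isPGroup' hs ht
    obtain ⟨g, rfl⟩ := QuotientGroup.mk'_surjective _ g
    obtain ⟨b, -, hb, j, hj⟩ := H51.exists_pelt_lift _ g hg
    rw [baseRep_sub_one_pow, ← hb, QuotientGroup.mk'_apply, EA.quotRep_mk,
      norm_eq_zero_of_expLE h1 hE₁ hj, map_zero]

end Cfsg.Agent.H36.Exc
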