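import Cfsg.Agent.H36.RootFam
import Cfsg.Agent.H36.Invol

/-! Root families in characteristic two give root involutions. -/

set_option autoImplicit false
set_option linter.unusedSimpArgs false

namespace Cfsg.Agent.H36

open Cfsg

universe u

variable {k : Type u} [Field k] {A : Type*} [Ring A] [Algebra k A] {G : Type*} [Group G]
variable {ι : G →* A} {D : Set A} {s t : A}

/-- the elements `1 + s`, `s ∈ D` -/
def RE (ι : G →* A) (D : Set A) : Set G := {g | ∃ s ∈ D, ι g = 1 + s}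

theorem exists_central_invol [Finite G] {a b : G} (ha : a * a = 1) (hb : b * b = 1)
    (h : ¬ Odd (orderOf (a * b))) : ∃ m : ℕ, (a * b) ^ m ≠ 1 ∧ (a * b) ^ m * (a * b) ^ m = 1 ∧
      a * (a * b) ^ m = (a * b) ^ m * a ∧ b * (a * b) ^ m = (a * b) ^ m * b := by
  obtain ⟨m, hm⟩ := Nat.not_odd_iff_even.mp h
  have hpos := orderOf_pos (a * b)
  have h2 : (a * b) ^ m * (a * b) ^ m = 1 := by rw [← pow_add, ← hm, pow_orderOf_eq_one]
  have h3 : a * (a * b) ^ m = (a * b) ^ m * a := by rw [refl_pow ha hb, inv_of_sq h2]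
  refine ⟨m, pow_ne_one_of_lt_orderOf (by omega) (by omega), h2, h3, ?_⟩
  have e : b = a * (a * b) := (sq' ha b).symm
  calc b * (a * b) ^ m = a * (a * b) * (a * b) ^ m := by rw [← e]
    _ = a * (a * b) ^ m * (a * b) := by rw [mul_assoc, ← pow_succ', pow_succ, mul_assoc]
    _ = (a * b) ^ m * (a * (a * b)) := by rw [h3, mul_assoc]
    _ = (a * b) ^ m * b := by rw [← e]

theorem two_smul_zero (h2 : (2 : k) = 0) (x : A) : x + x = 0 := by
  rw [← two_smul k x, h2, zero_smul]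

namespace RootFam

theorem sq_RE (h : RootFam k ι D) (h2 : (2 : k) = 0) {a : G} (hs : s ∈ D) (ha : ι a = 1 + s) :
    a * a = 1 := h.inj (by
  rw [map_mul, ha, map_one, mul_add, add_mul, add_mul, h.sq s hs]
  simp only [mul_one, one_mul, add_zero, add_assoc, two_smul_zero h2 s])

theorem ne_one_RE (h : RootFam k ι D) {a : G} (hs : s ∈ D) (ha : ι a = 1 + s) : a ≠ 1 := by
  rintro rfl
  exact h.ne s hs (by simpa using ha)

theorem odd_RE [Finite G] (h : RootFam k ι D) (h2 : (2 : k) = 0) {a b : G} (hs : s ∈ D) (ht : t ∈ D)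
    (ha : ι a = 1 + s) (hb : ι b = 1 + t) (h0 : s * t * s ≠ 0) : Odd (orderOf (a * b)) := by
  by_contra hn
  obtain ⟨m, z1, z2, z3, z4⟩ := exists_central_invol (h.sq_RE h2 hs ha) (h.sq_RE h2 ht hb) hn
  obtain ⟨l, l1, l2, -⟩ := h.tri s hs t ht
  have hl : l ≠ 0 := by rintro rfl; exact h0 (by simpa using l1)
  have ss := h.sq s hs
  have tt := h.sq t ht
  have ss' : ∀ x, s * (s * x) = 0 := fun x => by rw [← mul_assoc, ss, zero_mul]
  have tt' : ∀ x, t * (t * x) = 0 := fun x => by rw [← mul_assoc, tt, zero_mul]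
  have l1' : ∀ x, s * (t * (s * x)) = l • (s * x) := fun x => by
    rw [← mul_assoc, ← mul_assoc, l1, smul_mul_assoc]
  have l2' : ∀ x, t * (s * (t * x)) = l • (t * x) := fun x => by
    rw [← mul_assoc, ← mul_assoc, l2, smul_mul_assoc]
  rw [mul_assoc] at l1 l2
  have key : ∀ n : ℕ, ∃ α β γ δ : k,
      ι ((a * b) ^ n) = 1 + (α • s + β • t + γ • (s * t) + δ • (t * s)) := by
    intro n
    induction n with
    | zero => exact ⟨0, 0, 0, 0, by simp⟩
    | succ n ih =>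
      obtain ⟨α, β, γ, δ, e⟩ := ih
      refine ⟨α + 1 + γ * l, β + 1 + (δ + β) * l, γ + (α + 1 + γ * l), δ + β, ?_⟩
      rw [pow_succ, map_mul, map_mul, e, ha, hb]
      simp only [mul_add, add_mul, mul_one, one_mul, smul_mul_assoc, mul_assoc, ss, tt, ss', tt',
        l1, l2, l1', l2', mul_zero, smul_zero, add_zero, mul_smul_comm]
      module
  obtain ⟨α, β, γ, δ, e⟩ := key m
  obtain ⟨w, hw⟩ : ∃ w, w = α • s + β • t + γ • (s * t) + δ • (t * s) := ⟨_, rfl⟩
  rw [← hw] at e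
  have c1 : s * w = w * s := by
    have := congrArg ι z3
    rw [map_mul, map_mul, e, ha] at this
    simp only [mul_add, add_mul, mul_one, one_mul] at this
    have h3 : s * w - w * s = (1 + s + (w + s * w)) - (1 + w + (s + w * s)) := by abel
    rw [← sub_eq_zero, h3, this, sub_self]
  have c2 : t * w = w * t := by
    have := congrArg ι z4
    rw [map_mul, map_mul, e, hb] at this
    simp only [mul_add, add_mul, mul_one, one_mul] at this
    have h3 : t * w - w * t = (1 + t + (w + t * w)) - (1 + w + (t + w * t)) := by abel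
    rw [← sub_eq_zero, h3, this, sub_self]
  have c3 : w * w = 0 := by
    have := congrArg ι z2
    rw [map_mul, e, map_one] at this
    simp only [mul_add, add_mul, mul_one, one_mul] at this
    have h3 : w * w = (1 + w + (w + w * w)) - 1 - (w + w) := by abel
    rw [h3, this, two_smul_zero h2 w]; simp
  have hs0 := h.ne s hs
  have ht0 := h.ne t ht
  have hβ : β = 0 := by
    have : s * w * s = 0 := by rw [c1, mul_assoc, ss, mul_zero]
    rw [hw] at this
    simp only [mul_add, add_mul, mul_smul_comm, smul_mul_assoc, mul_assoc, ss, ss', l1, mul_zero,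
      smul_zero, add_zero, zero_add, smul_smul, zero_mul] at this
    simpa [hl, hs0] using this
  have hα : α = 0 := by
    have : t * w * t = 0 := by rw [c2, mul_assoc, tt, mul_zero]
    rw [hw] at this
    simp only [mul_add, add_mul, mul_smul_comm, smul_mul_assoc, mul_assoc, tt, tt', l2, mul_zero,
      smul_zero, add_zero, zero_add, smul_smul, zero_mul] at this
    simpa [hl, ht0] using this
  subst hα hβ
  have hγδ : δ = γ := by
    rw [hw] at c1
    simp only [mul_add, add_mul, mul_smul_comm, smul_mul_assoc, mul_assoc, ss, ss', l1, mul_zero,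
      smul_zero, add_zero, zero_add, smul_smul, zero_smul] at c1
    rw [← sub_eq_zero, ← sub_smul, ← sub_mul] at c1
    simpa [hl, hs0, sub_eq_zero] using c1
  subst hγδ
  have hsw : s * w = (δ * l) • s := by
    rw [hw]
    simp only [mul_add, mul_smul_comm, ss', l1, smul_zero, zero_add, smul_smul, zero_smul,
      mul_zero]
  have hδ : δ = 0 := by
    have : s * w * w = 0 := by rw [mul_assoc, c3, mul_zero]
    rw [hsw, smul_mul_assoc, hsw, smul_smul] at this
    simpa [hl, hs0] using this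
  subst hδ
  apply z1
  apply h.inj
  rw [e, hw]; simp

theorem sq_mul_RE (h : RootFam k ι D) (h2 : (2 : k) = 0) {a b : G} (hs : s ∈ D) (ht : t ∈ D)
    (ha : ι a = 1 + s) (hb : ι b = 1 + t) (h0 : s * t * s = 0) :
    ι ((a * b) ^ 2) = 1 + (s * t - t * s) := by
  have := h.map_cm hs ht h0 (h.nil_symm hs ht h0) (a := a) (b := b) (c := 1) (d := 1)
    (by simpa using ha) (by simpa using hb)
  rw [inv_of_sq (h.sq_RE h2 hs ha), inv_of_sq (h.sq_RE h2 ht hb)] at this
  simpa only [pow_two, mul_assoc, mul_one, one_smul] using this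

theorem four_RE (h : RootFam k ι D) (h2 : (2 : k) = 0) {a b : G} (hs : s ∈ D) (ht : t ∈ D)
    (ha : ι a = 1 + s) (hb : ι b = 1 + t) (h0 : s * t * s = 0) :
    a * b = b * a ∨ (orderOf (a * b) = 4 ∧ (a * b) ^ 2 ∈ RE ι D) := by
  have e := h.sq_mul_RE h2 hs ht ha hb h0
  by_cases hc : s * t - t * s = 0
  · left
    apply comm_of_sq (h.sq_RE h2 hs ha) (h.sq_RE h2 ht hb)
    apply h.inj
    rw [e, hc]; simp
  · right
    have hm := h.comm_mem hs ht h0 hc
    refine ⟨orderOf_four_of ?_ (h.ne_one_RE hm e), _, hm, e⟩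
    rw [show (4 : ℕ) = 2 + 2 from rfl, pow_add, h.sq_RE h2 hm e]

theorem mem_RE_of_mem_RG (h : RootFam k ι D) (hsm : ∀ s ∈ D, ∀ c : k, c ≠ 0 → c • s ∈ D)
    (hs : s ∈ D) {a : G} (ha : a ∈ RG k ι s) (ha1 : a ≠ 1) :
    ∃ c : k, c ≠ 0 ∧ c • s ∈ D ∧ ι a = 1 + c • s := by
  obtain ⟨c, hc⟩ := (mem_RG (h.sq s hs)).mp ha
  have : c ≠ 0 := by
    rintro rfl
    exact ha1 (h.inj (by simpa using hc))
  exact ⟨c, this, hsm s hs c this, hc⟩

theorem rootInvolutionSet [Finite G] (h : RootFam k ι D) (h2 : (2 : k) = 0)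
    (hsm : ∀ s ∈ D, ∀ c : k, c ≠ 0 → c • s ∈ D) (hgen : (⨆ X ∈ RS k ι D, X) = ⊤) :
    IsRootInvolutionSet (RE ι D) where
  orderOf_eq := by
    rintro a ⟨s, hs, ha⟩
    exact orderOf_two_of_sq (h.sq_RE h2 hs ha) (h.ne_one_RE hs ha)
  generates := by
    rw [eq_top_iff, ← hgen]
    refine iSup₂_le ?_
    rintro _ ⟨s, hs, rfl⟩ a ha
    by_cases ha1 : a = 1
    · rw [ha1]; exact Subgroup.one_mem _
    · obtain ⟨c, -, hc, e⟩ := h.mem_RE_of_mem_RG hsm hs ha ha1
      exact Subgroup.subset_closure ⟨_, hc, e⟩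
  conj_mem := by
    rintro a ⟨s, hs, ha⟩ g
    refine ⟨_, h.conj s hs g, ?_⟩
    rw [map_mul, map_mul, ha, mul_add, add_mul, mul_one, ← map_mul, mul_inv_cancel, map_one]
  pair := by
    rintro a ⟨s, hs, ha⟩ b ⟨t, ht, hb⟩
    by_cases h0 : s * t * s = 0
    · rcases h.four_RE h2 hs ht ha hb h0 with h1 | h1
      · exact Or.inl h1
      · exact Or.inr (Or.inr h1)
    · exact Or.inr (Or.inl (h.odd_RE h2 hs ht ha hb h0))

theorem conj_RE [Finite G] (h : RootFam k ι D) (h2 : (2 : k) = 0)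
    (hsm : ∀ s ∈ D, ∀ c : k, c ≠ 0 → c • s ∈ D) (hopp : ∀ s ∈ D, ∃ t ∈ D, s * t * s ≠ 0)
    (hc : IsConnectedFamily (FAdj (RS k ι D)) (RS k ι D)) {a b : G} (ha : a ∈ RE ι D)
    (hb : b ∈ RE ι D) : ∃ g : G, b = g * a * g⁻¹ := by
  have step : ∀ s ∈ D, ∀ t ∈ D, s * t * s ≠ 0 → ∀ a ∈ RG k ι s, a ≠ 1 → ∀ b ∈ RG k ι t, b ≠ 1 →
      IsConj a b := by
    intro s hs t ht h0 a ha ha1 b hb hb1
    obtain ⟨c, hc0, hc, e1⟩ := h.mem_RE_of_mem_RG hsm hs ha ha1
    obtain ⟨d, hd0, hd, e2⟩ := h.mem_RE_of_mem_RG hsm ht hb hb1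
    have := h.odd_RE h2 hc hd e1 e2 (by
      simp only [smul_mul_assoc, mul_smul_comm, smul_smul]
      exact smul_ne_zero (mul_ne_zero hc0 (mul_ne_zero hd0 hc0)) h0)
    obtain ⟨n, hn⟩ := exists_conj_of_odd (h.sq_RE h2 hc e1) (h.sq_RE h2 hd e2) this
    exact isConj_iff.mpr ⟨_, hn⟩
  have key : ∀ X ∈ RS k ι D, ∀ Y, Relation.ReflTransGen (FAdj (RS k ι D)) X Y →
      ∀ a ∈ X, a ≠ 1 → ∀ b ∈ Y, b ≠ 1 → IsConj a b := by
    rintro _ ⟨s, hs, rfl⟩ Y hY a ha ha1
    induction hY with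
    | refl =>
      intro b hb hb1
      obtain ⟨t, ht, h0⟩ := hopp s hs
      obtain ⟨y, hy, -, hy1⟩ := h.exists_one ht
      exact (step s hs t ht h0 a ha ha1 y hy hy1).trans (step s hs t ht h0 b hb hb1 y hy hy1).symm
    | tail _ h3 ih =>
      intro b hb hb1
      obtain ⟨⟨t, ht, rfl⟩, ⟨r, hr, rfl⟩, h4⟩ := h3
      obtain ⟨y, hy, -, hy1⟩ := h.exists_one ht
      exact (ih y hy hy1).trans (step t ht r hr ((h.RO_iff ht hr).mp h4) y hy hy1 b hb hb1)
  obtain ⟨s, hs, ha⟩ := ha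
  obtain ⟨t, ht, hb⟩ := hb
  obtain ⟨g, hg⟩ := isConj_iff.mp (key _ ⟨s, hs, rfl⟩ _ (hc _ ⟨s, hs, rfl⟩ _ ⟨t, ht, rfl⟩) a
    ((mem_RG (h.sq s hs)).mpr ⟨1, by simpa using ha⟩) (h.ne_one_RE hs ha) b
    ((mem_RG (h.sq t ht)).mpr ⟨1, by simpa using hb⟩) (h.ne_one_RE ht hb))
  exact ⟨g, hg.symm⟩

theorem cube_RE (h : RootFam k ι D) (h2 : (2 : k) = 0) {a b : G} (hs : s ∈ D) (ht : t ∈ D)
    (ha : ι a = 1 + s) (hb : ι b = 1 + t) (h0 : s * t * s = s) (h1 : t * s * t = t) :
    (a * b) ^ 3 = 1 := by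
  have e : a * b * a = b * a * b := by
    apply h.inj
    simp only [map_mul, ha, hb, mul_add, add_mul, mul_one, one_mul, h.sq s hs, h.sq t ht, h0, h1]
    have e1 := two_smul_zero h2 s
    have e2 := two_smul_zero h2 t
    rw [← sub_eq_zero]
    calc _ = (s + s) - (t + t) := by abel
      _ = 0 := by rw [e1, e2, sub_self]
  have sa := h.sq_RE h2 hs ha
  have sb := h.sq_RE h2 ht hb
  calc (a * b) ^ 3 = (a * b * a) * (b * a * b) := by
        simp only [pow_succ, pow_zero, one_mul, mul_assoc]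
    _ = 1 := by rw [← e]; simp only [mul_assoc, sq' sa, sq' sb, sa]

end RootFam

end Cfsg.Agent.H36
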