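import Cfsg.Agent.H17.LPDefs

/-! Project LP, piece EXM14: the adjoint module of `SL₅(2)`. -/

set_option autoImplicit false

namespace Cfsg.Agent.H36.LpEx14

open Matrix Cfsg.Agent.H17.LP

/-- matrix units -/
abbrev E (i j : Fin 5) : M5 := single i j 1

/-- trace zero matrices -/
abbrev W : Submodule F M5 := LinearMap.ker (traceLinearMap (Fin 5) F F)

/-- conjugation -/
def rho : Representation F SL5 W where
  toFun g := ((LinearMap.mulRight F (g⁻¹).1).comp (LinearMap.mulLeft F g.1)).restrict fun m hm => by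
    have h : (g⁻¹).1 * g.1 = 1 := congrArg Subtype.val (inv_mul_cancel g)
    change trace (g.1 * m * (g⁻¹).1) = 0
    rw [trace_mul_cycle, h, one_mul]
    exact hm
  map_one' := LinearMap.ext fun m => Subtype.ext (by
    change (1 : SL5).1 * m.1 * ((1 : SL5)⁻¹).1 = m.1
    rw [inv_one]
    exact (mul_one _).trans (one_mul _))
  map_mul' g h := LinearMap.ext fun m => Subtype.ext (by
    change (g * h).1 * m.1 * ((g * h)⁻¹).1 = g.1 * (h.1 * m.1 * (h⁻¹).1) * (g⁻¹).1
    rw [_root_.mul_inv_rev, coe_mul', coe_mul']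
    simp only [mul_assoc])

theorem coe_rho (g : SL5) (m : W) : (rho g m).1 = g.1 * m.1 * (g⁻¹).1 := rfl

theorem sq_one {i j : Fin 5} (h : i ≠ j) : (1 + E i j) * (1 + E i j) = 1 := by
  rw [add_mul, one_mul, mul_add, mul_one, single_mul_single_of_ne _ _ _ _ h.symm, add_zero, add_assoc,
    add_self_M, add_zero]

/-- transvections -/
def tv {i j : Fin 5} (h : i ≠ j) : SL5 := ⟨1 + E i j, det_transvection_of_ne _ _ h 1⟩

theorem coe_tv {i j : Fin 5} (h : i ≠ j) : (tv h).1 = 1 + E i j := rfl

theorem tv_inv {i j : Fin 5} (h : i ≠ j) : (tv h)⁻¹ = tv h :=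
  inv_eq_of_mul_eq_one_right (Subtype.ext ((coe_mul' _ _).trans (sq_one h)))

theorem X_inv (i j : ℕ) : (X i j)⁻¹ = X i j := by
  by_cases h : ix i = ix j
  · rw [show X i j = 1 from dif_pos h, inv_one]
  · rw [show X i j = tv h from dif_neg h, tv_inv]

theorem core (T : Submodule F M5)
    (hT : ∀ i j, i ≠ j → ∀ m ∈ T, E i j * m + m * E i j + E i j * m * E i j ∈ T)
    {m : M5} (hm : m ∈ T) (h0 : m ≠ 0) (ht : trace m = 0) (x : M5) (hx : trace x = 0) : x ∈ T := by
  have one : ∀ c : F, c ≠ 0 → c = 1 := by decide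
  have k0 : ∃ a b, a ≠ b ∧ E a b ∈ T := by
    by_cases h : ∃ i j, i ≠ j ∧ m j i ≠ 0
    · obtain ⟨i, j, hij, h⟩ := h
      obtain ⟨k, l, h1, h2, h3, h4⟩ : ∃ k l, k ≠ i ∧ j ≠ k ∧ l ≠ i ∧ k ≠ l := by
        clear h; revert i j; decide
      have := hT k l h4 _ (hT i k h1.symm _ (hT i j hij m hm))
      refine ⟨i, l, h3.symm, ?_⟩
      simpa [mul_add, add_mul, ← mul_assoc, single_mul_single_of_ne _ _ _ _ h1,
        single_mul_single_of_ne _ _ _ _ h3, single_mul_single_of_ne _ _ _ _ h2,
        single_mul_single_of_ne _ _ _ _ hij.symm, mul_assoc m, one _ h] using this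
    push Not at h
    obtain ⟨i, j, hij⟩ : ∃ i j, m i i ≠ m j j := by
      by_contra hc
      push Not at hc
      have e : m 0 0 = 0 := by
        have : ∀ c : F, c + c + c + c + c = 0 → c = 0 := by decide
        rw [trace, Fin.sum_univ_five] at ht
        simp only [diag, hc _ 0] at ht
        exact this _ ht
      refine h0 (ext fun a b => ?_)
      by_cases hab : b = a
      · rw [hab, hc a 0, e]; rfl
      · exact h b a hab
    have hne : i ≠ j := fun e => hij (by rw [e])
    have e : m = diagonal fun a => m a a := ext fun a b => by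
      by_cases hab : a = b
      · rw [hab, diagonal_apply_eq]
      · rw [diagonal_apply_ne _ hab, h b a (Ne.symm hab)]
    refine ⟨i, j, hne, ?_⟩
    convert hT i j hne m hm using 1
    have k : ∀ c d : F, c ≠ d → d + c = 1 := by decide
    rw [single_mul_mul_single, h i j hne, e]
    ext a b
    simp only [mul_diagonal, diagonal_mul, Matrix.add_apply, single_apply]
    split_ifs with hab
    · obtain ⟨rfl, rfl⟩ := hab
      simp [k _ _ hij]
    · simp
  have r : ∀ a b i, a ≠ b → i ≠ b → E a b ∈ T → E i b ∈ T := fun a b i h1 h2 h3 => by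
    by_cases h : i = a
    · rwa [h]
    simpa [single_mul_single_of_ne _ _ _ _ h2.symm] using hT i a h _ h3
  have c : ∀ a b j, a ≠ b → j ≠ a → E a b ∈ T → E a j ∈ T := fun a b j h1 h2 h3 => by
    by_cases h : b = j
    · rwa [← h]
    simpa [single_mul_single_of_ne _ _ _ _ h2] using hT b j h _ h3
  obtain ⟨a, b, hab, k1⟩ := k0
  have k2 : ∀ i j, i ≠ j → E i j ∈ T := fun i j hij => by
    obtain ⟨k, h1, h2⟩ : ∃ k, k ≠ b ∧ k ≠ j := by clear hij hab k1; revert b j; decide
    exact r k j i h2 hij (c k b j h1 h2.symm (r a b k hab h1 k1))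
  have k3 : ∀ i, E i i + E 0 0 ∈ T := fun i => by
    by_cases h : i = 0
    · rw [h, add_self_M]; exact zero_mem _
    have := hT i 0 h _ (k2 0 i (Ne.symm h))
    simp only [single_mul_single_same, mul_one] at this
    exact (add_mem_cancel_right (k2 i 0 h)).1 this
  have k4 : ∀ i j (s : F), single i j s + (if i = j then s else 0) • E 0 0 ∈ T := fun i j s => by
    split_ifs with h
    · have := T.smul_mem s (k3 j)
      rwa [smul_add, smul_single, smul_eq_mul, mul_one, ← h, show single i i s = single i j s by rw [h]]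
        at this
    · simpa using T.smul_mem s (k2 i j h)
  have k5 := T.sum_mem (t := Finset.univ) fun i _ => T.sum_mem (t := Finset.univ) fun j _ => k4 i j (x i j)
  simp only [Finset.sum_add_distrib, ← Finset.sum_smul, Finset.sum_ite_eq, Finset.mem_univ,
    if_true] at k5
  rwa [← matrix_eq_sum_single, show ∑ i, x i i = 0 from hx, zero_smul, add_zero] at k5

theorem exMod14 : ExMod [1, 4] := by
  have vW : E 0 4 ∈ W := show trace (E 0 4) = 0 by decide
  have v0 : (⟨E 0 4, vW⟩ : W) ≠ 0 := fun e => absurd (congrArg Subtype.val e) (show E 0 4 ≠ 0 by decide)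
  refine ⟨W, inferInstance, inferInstance, inferInstance, rho, ⟨E 0 4, vW⟩,
    ⟨⟨_, _, v0⟩, fun S hS => or_iff_not_imp_left.2 fun h => ?_⟩, ⟨v0, ?_, ?_⟩, ?_⟩
  · obtain ⟨m, hm, h0⟩ := (Submodule.ne_bot_iff S).1 h
    refine eq_top_iff.2 fun x _ => ?_
    suffices H : x.1 ∈ S.map W.subtype from let ⟨_, hy, e⟩ := H; Subtype.ext e ▸ hy
    refine core (S.map W.subtype) ?_ ⟨m, hm, rfl⟩ (fun e => h0 (Subtype.ext e)) m.2 x x.2
    rintro i j hij _ ⟨m, hm, rfl⟩
    refine ⟨_, sub_mem (hS (tv hij) m hm) hm, ?_⟩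
    rw [Submodule.subtype_apply, Submodule.subtype_apply, Submodule.coe_sub, coe_rho, tv_inv, coe_tv]
    noncomm_ring
  · simp only [Subtype.ext_iff, coe_rho, X_inv]
    decide +kernel
  · simp only [Subtype.ext_iff, coe_rho, X_inv, _root_.mul_inv_rev, Submodule.coe_add, coe_mul']
    decide +kernel
  · have h1 := LinearMap.finrank_range_add_finrank_ker (traceLinearMap (Fin 5) F F)
    have h2 := Submodule.finrank_le (LinearMap.range (traceLinearMap (Fin 5) F F))
    rw [Module.finrank_self] at h2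
    rw [Module.finrank_matrix] at h1
    simp only [Fintype.card_fin, Module.finrank_self] at h1
    rw [Module.natCard_eq_pow_finrank (K := F), Nat.card_zmod, show 1024 = 2 ^ 10 from rfl]
    intro e
    have h3 : Module.finrank F (LinearMap.ker (traceLinearMap (Fin 5) F F)) = 10 :=
      Nat.pow_right_injective le_rfl e
    omega

end Cfsg.Agent.H36.LpEx14
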