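import Cfsg.Agent.H45.OnDefs

/-!
# A component normalizing the components at its fixed points fixes only its base point
-/

set_option autoImplicit false

namespace Cfsg.Agent.H36.OnZc

open Cfsg.Agent.H45.On

universe u v

lemma fx_cj {G : Type u} {Ω : Type v} [Group G] [MulAction G Ω] (h : G) (M : Subgroup G)
    (w : Ω) : Fx (cj h M) (h • w) ↔ Fx M w := by
  constructor
  · intro H m hm
    have := H _ (cj_mem (g := h) hm)
    rw [mul_smul, mul_smul, inv_smul_smul] at this
    exact MulAction.injective h this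
  · intro H m hm
    have := H _ (mem_cj.1 hm)
    rw [mul_smul, mul_smul, inv_smul_eq_iff] at this
    exact this

theorem zc (hDc : DcStmt.{u, v}) : ZcStmt.{u, v} := by
  intro G Ω _ _ _ _ S hN x y M hM hy
  by_contra hne
  have hgw : ∃ g ∈ M, ∃ w : Ω, g • w ≠ w := by
    by_contra hc
    push Not at hc
    exact S.nab hM fun a ha b _ => by rw [S.faith a (hc a ha), one_mul, mul_one]
  obtain ⟨g, hg, w, hw⟩ := hgw
  let R : Ω → Ω → Ω → Prop := fun z w w' => ∀ M', S.C z M' → (Fx M' w ↔ Fx M' w')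
  have hR : ∀ (h : G) z w w', R z w w' → R (h • z) (h • w) (h • w') := by
    intro h z w w' H M' hM'
    have h1 := S.conj h⁻¹ hM'
    rw [inv_smul_smul] at h1
    rw [← cj_cj_inv h M', fx_cj, fx_cj]
    exact H _ h1
  have hc := hDc S R hR x y w (g • w) (Ne.symm hne) hw.symm
  have hZ : ∀ z, Fx M z → z ∈ {z | z ≠ w ∧ z ≠ g • w ∧ R z w (g • w)} := by
    intro z hz
    have h1 : z ≠ w := fun e => hw (e ▸ hz g hg)
    refine ⟨h1, fun e => h1 (MulAction.injective g ((hz g hg).trans e)), fun M' hM' => ?_⟩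
    rw [← fx_cj g M' w, hN x z M M' hM hz hM' g hg]
  have hsub : insert x {w' | w' ≠ x ∧ w' ≠ y ∧ R x y w'} ⊆
      {z | z ≠ w ∧ z ≠ g • w ∧ R z w (g • w)} := by
    rintro z (rfl | hz)
    · exact hZ _ (S.fx hM)
    · exact hZ _ ((hz.2.2 M hM).1 hy)
  have h1 := Set.ncard_le_ncard hsub
  rw [Set.ncard_insert_of_notMem (fun h => h.1 rfl)] at h1
  omega

end Cfsg.Agent.H36.OnZc
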