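import Cfsg.Agent.Lead.PcDefs
import Cfsg.Agent.S0012
import Cfsg.Agent.S0029
import Cfsg.Agent.S0205
import Cfsg.Agent.S0227

set_option autoImplicit false

namespace Cfsg.Agent.H36.PlOo

open Subgroup Cfsg.Agent.Lead.Pc
open scoped commutatorElement

universe u

theorem sq_conj {G : Type u} [Group G] {T : Subgroup G} {g : G} (hg : g ∈ Nm T) {x : G}
    (hx : x ∈ Sq T) : g * x * g⁻¹ ∈ Sq T := by
  induction hx using closure_induction with
  | mem x hx =>
    obtain ⟨t, ht, rfl⟩ := hx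
    exact subset_closure ⟨g * t * g⁻¹, (mem_normalizer_iff.1 hg t).1 ht, by group⟩
  | one => simpa using one_mem _
  | mul x y _ _ hx hy =>
    have := mul_mem hx hy
    rwa [show g * x * g⁻¹ * (g * y * g⁻¹) = g * (x * y) * g⁻¹ by group] at this
  | inv x _ hx =>
    have := inv_mem hx
    rwa [show (g * x * g⁻¹)⁻¹ = g * x⁻¹ * g⁻¹ by group] at this

theorem pow_triv {G : Type u} [Group G] {T : Subgroup G} {n : G} (hn : n ∈ Nm T)
    (h : ∀ t ∈ T, ⁅n, t⁆ ∈ Sq T) (k : ℕ) : ∀ t ∈ T, ⁅n ^ k, t⁆ ∈ Sq T := by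
  induction k with
  | zero => intro t _; simpa using one_mem _
  | succ k ih =>
    intro t ht
    have := mul_mem (sq_conj hn (ih t ht)) (h t ht)
    rwa [show n * ⁅n ^ k, t⁆ * n⁻¹ * ⁅n, t⁆ = ⁅n ^ (k + 1), t⁆ by
      simp only [commutatorElement_def, pow_succ']; group] at this

/-- an element of odd order trivial on `T / Sq T` centralises `T` -/
theorem cent_of {G : Type u} [Group G] [Finite G] {T : Subgroup G} (two : IsPGroup 2 T) {n : G}
    (hn : n ∈ Nm T) (h : ∀ t ∈ T, ⁅n, t⁆ ∈ Sq T) (ho : Odd (orderOf n)) :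
    n ∈ centralizer (T : Set G) := by
  haveI : Fact (Nat.Prime 2) := ⟨Nat.prime_two⟩
  have hs : Sq T ≤ (frattini T).map T.subtype := by
    refine (closure_le _).2 ?_
    rintro _ ⟨t, ht, rfl⟩
    exact ⟨⟨t, ht⟩ ^ 2, (S0012.result 2 two).2 _, by simp [pow_two]⟩
  refine S0029.result (zpowers n) T (zpowers_le.2 hn) ?_ ?_ (mem_zpowers n)
  · obtain ⟨k, hk⟩ := IsPGroup.iff_card.1 (two.to_subgroup (frattini T))
    rw [Nat.card_zpowers, hk]
    exact (Nat.coprime_two_right.2 ho).pow_right k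
  · intro a ha t ht
    obtain ⟨k, rfl⟩ := (mem_powers_iff_mem_zpowers.2 ha)
    exact hs (pow_triv hn h k t ht)

theorem oo : OoStmt.{u} := by
  intro G _ _ S T h
  haveI : Fact (Nat.Prime 2) := ⟨Nat.prime_two⟩
  haveI := h.nm
  haveI := h.sim
  let P : Sylow 2 S := (h.two.comap_subtype (K := S)).toSylow
    (fun e => (Nat.not_even_iff_odd.2 h.odd) (even_iff_two_dvd.2 e))
  have hP : ∀ s : S, s ∈ P ↔ (s : G) ∈ T := fun s => Iff.rfl
  let C : Subgroup (MulAut S) :=
    { carrier := {φ | ∀ s : S, s ∈ P → φ s = s}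
      one_mem' := fun _ _ => rfl
      mul_mem' := fun {a b} ha hb s hs => by rw [MulAut.mul_apply, hb s hs, ha s hs]
      inv_mem' := fun {a} ha s hs => by
        conv_lhs => rw [← ha s hs]
        exact a.symm_apply_apply s }
  have hO : ∀ N : Subgroup S, N.Normal → Odd (Nat.card N) → N = ⊥ := by
    intro N hN ho
    refine (hN.eq_bot_or_eq_top).resolve_right fun e => h.na ?_
    rw [e, card_top] at ho
    exact ⟨⟨IsSimpleGroup.comm_iff_isSolvable.2 (S0205.result ho)⟩⟩
  obtain ⟨Q⟩ : Nonempty (Sylow 2 C) := inferInstance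
  obtain ⟨-, N, hN, hc⟩ := (S0227.result hO P C fun _ => Iff.rfl).1 Q
  have oN : Odd (Nat.card N) := by
    rw [← hc.index_eq_card]
    exact Nat.not_even_iff_odd.1 fun e => Q.not_dvd_index e.two_dvd
  have inN : ∀ c : C, Odd (orderOf c) → c ∈ N := by
    intro c ho
    obtain ⟨k, hk⟩ := IsPGroup.iff_card.1 Q.isPGroup'
    have h1 : c ^ N.index ∈ N := N.pow_index_mem c
    rw [hc.symm.index_eq_card, hk] at h1
    have h2 : c ∈ zpowers (c ^ 2 ^ k) :=
      mem_zpowers_pow_iff.2 ((Nat.coprime_two_left.2 ho).pow_left k)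
    exact zpowers_le.2 h1 h2
  let f : G →* MulAut S := MulAut.conjNormal
  have finj : Function.Injective f := by
    rw [injective_iff_map_eq_one]
    intro g hg
    rw [← mem_bot, ← h.cen]
    intro s hs
    have := congrArg (fun φ : MulAut S => ((φ ⟨s, hs⟩ : S) : G)) hg
    simp only [f, MulAut.conjNormal_apply, MulAut.one_apply] at this
    exact (mul_inv_eq_iff_eq_mul.1 this).symm
  have fC : ∀ g : G, f g ∈ C ↔ g ∈ centralizer (T : Set G) := by
    intro g
    constructor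
    · intro hg t ht
      have := congrArg Subtype.val (hg ⟨t, h.le ht⟩ ht)
      simp only [f, MulAut.conjNormal_apply] at this
      exact (mul_inv_eq_iff_eq_mul.1 this).symm
    · intro hg s hs
      apply Subtype.ext
      simp only [f, MulAut.conjNormal_apply]
      rw [← hg s hs, mul_inv_cancel_right]
  let O : Subgroup G := (N.map C.subtype).comap f
  have oO : Odd (Nat.card O) := by
    have := card_comap_dvd_of_injective (N.map C.subtype) f finj
    rw [card_map_of_injective C.subtype_injective] at this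
    exact oN.of_dvd_nat this
  have mO : ∀ g : G, g ∈ O ↔ g ∈ centralizer (T : Set G) ∧ Odd (orderOf g) := by
    intro g
    constructor
    · intro hg
      exact ⟨(fC g).1 (map_subtype_le _ hg), oO.of_dvd_nat (orderOf_dvd_natCard O hg)⟩
    · rintro ⟨h1, h2⟩
      refine ⟨⟨f g, (fC g).2 h1⟩, inN _ ?_, rfl⟩
      rw [← orderOf_injective C.subtype C.subtype_injective]
      exact h2.of_dvd_nat (orderOf_map_dvd f g)
  have cj : ∀ n ∈ Nm T, ∀ g ∈ O, n * g * n⁻¹ ∈ O := by
    intro n hn g hg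
    obtain ⟨h1, h2⟩ := (mO g).1 hg
    refine (mO _).2 ⟨fun t ht => ?_, ?_⟩
    · have := h1 _ ((mem_normalizer_iff.1 (inv_mem hn) t).1 ht)
      calc t * (n * g * n⁻¹) = n * (n⁻¹ * t * n⁻¹⁻¹ * g) * n⁻¹ := by group
        _ = _ := by rw [this]; group
    · have : orderOf (n * g * n⁻¹) = orderOf g :=
        (MulAut.conj n).orderOf_eq g
      rwa [this]
  refine ⟨O, oO, fun n hn => mem_normalizer_iff.2 fun g => ⟨cj n hn g, fun hg => ?_⟩, ?_⟩
  · have := cj _ (inv_mem hn) _ hg
    rwa [show n⁻¹ * (n * g * n⁻¹) * n⁻¹⁻¹ = g by group] at this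
  · intro n hn ht
    obtain ⟨k, m, hm, e⟩ := Nat.exists_eq_two_pow_mul_odd (orderOf_pos n).ne'
    have ho : Odd (orderOf (n ^ 2 ^ k)) :=
      hm.of_dvd_nat (orderOf_dvd_of_pow_eq_one (by rw [← pow_mul, ← e, pow_orderOf_eq_one]))
    exact ⟨k, (mO _).2 ⟨cent_of h.two (pow_mem hn _) (pow_triv hn ht _) ho, ho⟩⟩

end Cfsg.Agent.H36.PlOo
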