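import Mathlib

/-! Rank three groups and strongly regular graphs. -/

set_option autoImplicit false
set_option linter.unusedSectionVars false

namespace Cfsg.Agent.H36.R3

open MulAction

/-- The integrality condition for a strongly regular graph. -/
theorem srg_int {V : Type*} [Fintype V] {Γ : SimpleGraph V} [DecidableRel Γ.Adj] {n k l m : ℕ}
    (h : Γ.IsSRGWith n k l m) (hn : 0 < n) (hd : (0 : ℤ) < ((l : ℤ) - m) ^ 2 + 4 * (k - m))
    (hp : (k : ℤ) ^ 2 = k + l * k + m * (n - 1 - k)) :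
    ∃ f : ℕ, ((n : ℤ) - 1 - 2 * f) ^ 2 * (((l : ℤ) - m) ^ 2 + 4 * (k - m)) =
      ((n - 1) * (l - m) + 2 * k) ^ 2 := by
  classical
  have hd' : (0 : ℝ) < ((l : ℝ) - m) ^ 2 + 4 * (k - m) := by exact_mod_cast hd
  have hp' : (k : ℝ) ^ 2 = k + l * k + m * (n - 1 - k) := by exact_mod_cast hp
  set s := √(((l : ℝ) - m) ^ 2 + 4 * (k - m)) with hs
  have hs2 : s ^ 2 = ((l : ℝ) - m) ^ 2 + 4 * (k - m) := Real.sq_sqrt hd'.le
  have hs0 : s ≠ 0 := (Real.sqrt_pos.2 hd').ne'
  have hn' : (n : ℝ) ≠ 0 := by exact_mod_cast hn.ne'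
  set A := Γ.adjMatrix ℝ
  let J : Matrix V V ℝ := Matrix.of fun _ _ => 1
  have hA : A * A = (k : ℝ) • (1 : Matrix V V ℝ) + (l : ℝ) • A + (m : ℝ) • (J - 1 - A) := by
    rw [← pow_two, h.matrix_eq, Nat.cast_smul_eq_nsmul, Nat.cast_smul_eq_nsmul,
      Nat.cast_smul_eq_nsmul]
    congr 2
    ext v w
    by_cases e : v = w
    · subst e; simp [J, A]
    · by_cases e' : Γ.Adj v w <;> simp [J, A, e, e']
  have hAJ : A * J = (k : ℝ) • J := by
    ext v w
    simp [A, J, h.regular v]
  have hJA : J * A = (k : ℝ) • J := by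
    ext v w
    simp [A, J, h.regular w]
  have hJJ : J * J = (n : ℝ) • J := by
    ext v w
    simp [J, Matrix.mul_apply, h.card]
  let r : ℝ := ((l : ℝ) - m - s) / 2
  let c : ℝ := (k - r) / n
  let E : Matrix V V ℝ := s⁻¹ • (A - r • 1 - c • J)
  have hE : E * E = E := by
    simp only [E, smul_mul_assoc, mul_smul_comm, sub_mul, mul_sub, hA, hAJ, hJA, hJJ, mul_one,
      one_mul]
    match_scalars
    · simp only [r]; field_simp; linear_combination (-1 : ℝ) * hs2
    · simp only [r]; field_simp; ring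
    · simp only [c, r]; field_simp; linear_combination hs2 - 4 * hp'
  have hI : IsIdempotentElem (Matrix.toLin' E) := by
    rw [IsIdempotentElem, Module.End.mul_eq_comp, ← Matrix.toLin'_mul, hE]
  have ht := (LinearMap.IsIdempotentElem.isProj_range _ hI).trace
  rw [Matrix.trace_toLin'_eq] at ht
  refine ⟨Module.finrank ℝ (LinearMap.range (Matrix.toLin' E)), ?_⟩
  set f := Module.finrank ℝ (LinearMap.range (Matrix.toLin' E))
  have hJ : J.trace = n := by simp [J, Matrix.trace, h.card]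
  simp only [E, Matrix.trace_smul, Matrix.trace_sub, Matrix.trace_one, hJ, A,
    SimpleGraph.trace_adjMatrix, h.card, smul_eq_mul] at ht
  have h1 : ((n : ℝ) - 1 - 2 * f) * s = (n - 1) * (l - m) + 2 * k := by
    rw [← ht]
    simp only [c, r]
    field_simp
    ring
  have h2 : ((n : ℝ) - 1 - 2 * f) ^ 2 * (((l : ℝ) - m) ^ 2 + 4 * (k - m)) =
      ((n - 1) * (l - m) + 2 * k) ^ 2 := by rw [← hs2, ← mul_pow, h1]
  exact_mod_cast h2

variable {G Ω : Type*} [Group G] [Finite G] [MulAction G Ω] [Fintype Ω] [IsPretransitive G Ω]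

/-- The orbital of `(a, b)`. -/
def Orb (G : Type*) [Group G] [MulAction G Ω] (a b x y : Ω) : Prop :=
  ∃ g : G, g • a = x ∧ g • b = y

theorem Orb.smul {a b x y : Ω} (h : Orb G a b x y) (g : G) : Orb G a b (g • x) (g • y) := by
  obtain ⟨k, rfl, rfl⟩ := h
  exact ⟨g * k, mul_smul _ _ _, mul_smul _ _ _⟩

theorem orb_smul_iff {a b x y : Ω} (g : G) : Orb G a b (g • x) (g • y) ↔ Orb G a b x y :=
  ⟨fun h => by simpa using h.smul g⁻¹, fun h => h.smul g⟩

theorem orb_iff {a b y : Ω} : Orb G a b a y ↔ y ∈ orbit (stabilizer G a) b :=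
  ⟨fun ⟨g, h1, h2⟩ => ⟨⟨g, h1⟩, h2⟩, fun ⟨g, h⟩ => ⟨g.1, g.2, h⟩⟩

theorem ncard_orbit_mul (a y : Ω) :
    (orbit (stabilizer G a) y).ncard * Nat.card ↥(stabilizer G a ⊓ stabilizer G y) =
      Nat.card (stabilizer G a) := by
  rw [← index_stabilizer, ← (stabilizer (stabilizer G a) y).index_mul_card]
  congr 1
  rw [show stabilizer (stabilizer G a) y = (stabilizer G y).subgroupOf (stabilizer G a) from rfl,
    ← Subgroup.inf_subgroupOf_left]
  exact (Nat.card_congr (Subgroup.subgroupOfEquivOfLe inf_le_left).toEquiv).symm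

theorem card_inf_smul (g : G) (x y : Ω) :
    Nat.card ↥(stabilizer G (g • x) ⊓ stabilizer G (g • y)) =
      Nat.card ↥(stabilizer G x ⊓ stabilizer G y) := by
  rw [stabilizer_smul_eq_stabilizer_map_conj, stabilizer_smul_eq_stabilizer_map_conj,
    ← Subgroup.map_inf _ _ _ (MulAut.conj g).injective]
  exact Subgroup.card_map_of_injective (MulAut.conj g).injective

/-- Rank three data. -/
structure Dat (G : Type*) [Group G] [MulAction G Ω] (a b c : Ω) (k l : ℕ) : Prop where
  hb : (orbit (stabilizer G a) b).ncard = k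
  hc : (orbit (stabilizer G a) c).ncard = l
  hn : Fintype.card Ω = 1 + k + l
  hk : 1 < k
  hl : 1 < l
  hkl : k ≠ l

variable {a b c : Ω} {k l : ℕ}

theorem not_mem_orbit {y : Ω} (h : 1 < (orbit (stabilizer G a) y).ncard) :
    a ∉ orbit (stabilizer G a) y := fun ha => by
  have h1 : orbit (stabilizer G a) a ⊆ {a} := by
    rintro _ ⟨g, rfl⟩
    exact g.2
  have h2 := Set.ncard_le_ncard h1
  rw [Set.ncard_singleton, orbit_eq_iff.2 ha] at h2
  omega

theorem Dat.disj (h : Dat G a b c k l) :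
    Disjoint (orbit (stabilizer G a) b) (orbit (stabilizer G a) c) := by
  rw [Set.disjoint_left]
  intro x h1 h2
  exact h.hkl (by rw [← h.hb, ← h.hc, ← orbit_eq_iff.2 h1, ← orbit_eq_iff.2 h2])

theorem Dat.cases (h : Dat G a b c k l) (y : Ω) :
    y = a ∨ y ∈ orbit (stabilizer G a) b ∨ y ∈ orbit (stabilizer G a) c := by
  have h1 : insert a (orbit (stabilizer G a) b ∪ orbit (stabilizer G a) c) = Set.univ := by
    refine Set.eq_of_subset_of_ncard_le (Set.subset_univ _) ?_
    rw [Set.ncard_insert_of_notMem, Set.ncard_union_eq h.disj, h.hb, h.hc, Set.ncard_univ,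
      Nat.card_eq_fintype_card, h.hn]
    · omega
    · rintro (h1 | h1)
      · exact not_mem_orbit (h.hb ▸ h.hk) h1
      · exact not_mem_orbit (h.hc ▸ h.hl) h1
  simpa using h1.ge (Set.mem_univ y)

theorem Dat.ne (h : Dat G a b c k l) {x y : Ω} (hxy : Orb G a b x y) : x ≠ y := by
  obtain ⟨g, rfl, rfl⟩ := hxy
  intro e
  obtain rfl := smul_left_cancel g e
  exact not_mem_orbit (h.hb ▸ h.hk) (mem_orbit_self _)

theorem Dat.symm (h : Dat G a b c k l) {x y : Ω} (hxy : Orb G a b x y) : Orb G a b y x := by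
  obtain ⟨g, rfl⟩ := exists_smul_eq G a y
  obtain ⟨x, rfl⟩ := MulAction.surjective g x
  rw [orb_smul_iff] at hxy ⊢
  have h0 := h.ne hxy
  obtain ⟨u, h1, h2⟩ := hxy
  have h3 := ncard_orbit_mul (G := G) a x
  rw [← ncard_orbit_mul a b, ← card_inf_smul u a b, h1, h2, inf_comm] at h3
  have h4 := Nat.eq_of_mul_eq_mul_right Nat.card_pos h3
  rcases h.cases x with h5 | h5 | h5
  · exact absurd h5 h0
  · exact orb_iff.2 h5
  · exact absurd (by rw [← h.hb, ← h4, orbit_eq_iff.2 h5, h.hc]) h.hkl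

/-- The orbital graph. -/
def Dat.graph (h : Dat G a b c k l) : SimpleGraph Ω where
  Adj := Orb G a b
  symm := ⟨fun _ _ => h.symm⟩
  loopless := ⟨fun _ e => h.ne e rfl⟩

/-- The action on the orbital graph. -/
def Dat.hom (h : Dat G a b c k l) : G →* (h.graph ≃g h.graph) where
  toFun g := ⟨MulAction.toPerm g, orb_smul_iff g⟩
  map_one' := RelIso.ext fun x => one_smul G x
  map_mul' g g' := RelIso.ext fun x => mul_smul g g' x

theorem Dat.hom_apply (h : Dat G a b c k l) (g : G) (x : Ω) : h.hom g x = g • x := rfl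

theorem Dat.srg (h : Dat G a b c k l) [DecidableRel h.graph.Adj] :
    ∃ p q : ℕ, h.graph.IsSRGWith (1 + k + l) k p q := by
  have key : ∀ (g : G) (x y : Ω), Fintype.card (h.graph.commonNeighbors (g • x) (g • y)) =
      Fintype.card (h.graph.commonNeighbors x y) := fun g x y => by
    refine (Fintype.card_congr ((MulAction.toPerm g).subtypeEquiv fun z => ?_)).symm
    exact (and_congr (orb_smul_iff g) (orb_smul_iff g)).symm
  refine ⟨Fintype.card (h.graph.commonNeighbors a b), Fintype.card (h.graph.commonNeighbors a c),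
    h.hn, fun x => ?_, ?_, fun x y h1 h2 => ?_⟩
  · obtain ⟨g, rfl⟩ := exists_smul_eq G a x
    rw [← h.hom_apply, SimpleGraph.Iso.degree_eq, ← SimpleGraph.card_neighborSet_eq_degree,
      ← Nat.card_eq_fintype_card, Nat.card_coe_set_eq]
    exact (congrArg Set.ncard (Set.ext fun y => orb_iff)).trans h.hb
  · rintro _ _ ⟨g, rfl, rfl⟩
    exact key g a b
  · obtain ⟨g, rfl⟩ := exists_smul_eq G a x
    obtain ⟨y, rfl⟩ := MulAction.surjective g y
    simp only at h1 h2 ⊢
    rw [key]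
    rcases h.cases y with h3 | h3 | ⟨u, rfl⟩
    · exact absurd (h3 ▸ rfl) h1
    · exact absurd ((orb_iff.2 h3).smul g) h2
    · have := key u.1 a c
      rwa [show u.1 • a = a from u.2] at this

theorem card_eq (a : Ω) : Nat.card G = Fintype.card Ω * Nat.card (stabilizer G a) := by
  rw [← (stabilizer G a).index_mul_card, index_stabilizer_of_transitive, Nat.card_eq_fintype_card]

end Cfsg.Agent.H36.R3
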