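import Cfsg.Agent.H36.QuadSL2
import Cfsg.Agent.H36.RootTransfer

set_option autoImplicit false

/-! Families of one-parameter root subgroups `1 + k s` of a linear group. -/

namespace Cfsg.Agent.H36

open Cfsg
open scoped MatrixGroups

universe u

variable {k : Type u} [Field k] {A : Type*} [Ring A] [Algebra k A] {G : Type*} [Group G]

/-- A family of square zero elements behaving like long root elements. -/
structure RootFam (k : Type u) [Field k] [Algebra k A] (ι : G →* A) (D : Set A) : Prop where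
  inj : Function.Injective ι
  ne : ∀ s ∈ D, s ≠ 0
  sq : ∀ s ∈ D, s * s = 0
  mem : ∀ s ∈ D, ∀ c : k, ∃ g, ι g = 1 + c • s
  conj : ∀ s ∈ D, ∀ g, ι g * s * ι g⁻¹ ∈ D
  tri : ∀ s ∈ D, ∀ t ∈ D, ∃ l : k, s * t * s = l • s ∧ t * s * t = l • t ∧
    (l = 0 → s * t - t * s ≠ 0 → s * t - t * s ∈ D)

/-- The group `1 + k s`. -/
def RG (k : Type u) [Field k] [Algebra k A] (ι : G →* A) (s : A) : Subgroup G :=
  Subgroup.closure {g | ∃ c : k, ι g = 1 + c • s}

/-- The set of root subgroups. -/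
def RS (k : Type u) [Field k] [Algebra k A] (ι : G →* A) (D : Set A) : Set (Subgroup G) :=
  {X | ∃ s ∈ D, X = RG k ι s}

variable {ι : G →* A} {D : Set A} {s t : A}

theorem map_inv_eq {g : G} {c : k} (hs : s * s = 0) (e : ι g = 1 + c • s) :
    ι g⁻¹ = 1 + (-c) • s := by
  have h1 : ι g⁻¹ * (1 + c • s) = 1 := by rw [← e, ← map_mul, inv_mul_cancel, map_one]
  have h2 : (1 + c • s) * (1 + (-c) • s) = 1 := by
    simp [mul_add, add_mul, hs]
  calc ι g⁻¹ = ι g⁻¹ * ((1 + c • s) * (1 + (-c) • s)) := by rw [h2, mul_one]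
    _ = _ := by rw [← mul_assoc, h1, one_mul]

theorem mem_RG (hs : s * s = 0) {g : G} : g ∈ RG k ι s ↔ ∃ c : k, ι g = 1 + c • s := by
  refine ⟨fun hg => ?_, fun h => Subgroup.subset_closure h⟩
  induction hg using Subgroup.closure_induction with
  | mem x hx => exact hx
  | one => exact ⟨0, by simp⟩
  | mul x y _ _ hx hy =>
    obtain ⟨c, hc⟩ := hx
    obtain ⟨d, hd⟩ := hy
    exact ⟨c + d, by rw [map_mul, hc, hd]; simp [mul_add, add_mul, hs, add_smul, add_assoc]⟩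
  | inv x _ hx => exact let ⟨c, hc⟩ := hx; ⟨-c, map_inv_eq hs hc⟩

theorem RG_smul (s : A) {l : k} (hl : l ≠ 0) : RG k ι (l • s) = RG k ι s := by
  unfold RG
  congr 1
  ext g
  exact ⟨fun ⟨c, hc⟩ => ⟨c * l, by rw [hc, smul_smul]⟩,
    fun ⟨c, hc⟩ => ⟨c / l, by rw [hc, smul_smul, div_mul_cancel₀ _ hl]⟩⟩

theorem RG_neg (s : A) : RG k ι (-s) = RG k ι s := by
  rw [← neg_one_smul k s, RG_smul _ (neg_ne_zero.2 one_ne_zero)]

theorem conjBy_RG (hs : s * s = 0) (g : G) : conjBy (RG k ι s) g = RG k ι (ι g * s * ι g⁻¹) := by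
  have h1 : ι g⁻¹ * ι g = 1 := by rw [← map_mul, inv_mul_cancel, map_one]
  have h2 : ι g * ι g⁻¹ = 1 := by rw [← map_mul, mul_inv_cancel, map_one]
  have h3 : ∀ x, ι g⁻¹ * (ι g * x) = x := fun x => by rw [← mul_assoc, h1, one_mul]
  have h4 : ∀ x, ι g * (ι g⁻¹ * x) = x := fun x => by rw [← mul_assoc, h2, one_mul]
  ext x
  rw [mem_conjBy, mem_RG hs, mem_RG (by simp only [mul_assoc, h3, ← mul_assoc s, hs]; simp)]
  refine exists_congr fun c => ⟨fun h => ?_, fun h => ?_⟩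
  · have := congrArg (fun y => ι g * y * ι g⁻¹) h
    simpa only [map_mul, mul_assoc, h4, h2, mul_one, mul_add, add_mul, one_mul, mul_smul_comm,
      smul_mul_assoc] using this
  · rw [map_mul, map_mul, h]
    simp only [mul_assoc, h3, h1, mul_one, mul_add, add_mul, mul_smul_comm,
      smul_mul_assoc]

namespace RootFam

theorem com (h : RootFam k ι D) (hs : s ∈ D) (ht : t ∈ D) (h0 : s * t - t * s = 0) :
    Com (RG k ι s) (RG k ι t) := fun a ha b hb => by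
  obtain ⟨c, hc⟩ := (mem_RG (h.sq s hs)).1 ha
  obtain ⟨d, hd⟩ := (mem_RG (h.sq t ht)).1 hb
  apply h.inj
  rw [map_mul, map_mul, hc, hd]
  simp only [mul_add, add_mul, one_mul, mul_one, smul_mul_assoc, mul_smul_comm, sub_eq_zero.1 h0,
    smul_add]
  module

theorem exists_one (h : RootFam k ι D) (hs : s ∈ D) : ∃ g ∈ RG k ι s, ι g = 1 + s ∧ g ≠ 1 := by
  obtain ⟨g, hg⟩ := h.mem s hs 1
  refine ⟨g, Subgroup.subset_closure ⟨1, hg⟩, by rw [hg, one_smul], fun e => h.ne s hs ?_⟩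
  rwa [e, map_one, one_smul, left_eq_add] at hg

theorem com_iff' (h : RootFam k ι D) (hs : s ∈ D) (ht : t ∈ D) :
    Com (RG k ι s) (RG k ι t) ↔ s * t - t * s = 0 := by
  refine ⟨fun hc => ?_, h.com hs ht⟩
  obtain ⟨a, ha, e1, -⟩ := h.exists_one hs
  obtain ⟨b, hb, e2, -⟩ := h.exists_one ht
  have := congrArg ι (hc a ha b hb)
  rw [map_mul, map_mul, e1, e2, ← sub_eq_zero] at this
  rw [← this]; noncomm_ring

theorem ne_bot (h : RootFam k ι D) (hs : s ∈ D) : RG k ι s ≠ ⊥ := fun e =>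
  let ⟨_, hg, _, h1⟩ := h.exists_one hs; h1 (Subgroup.mem_bot.1 (e ▸ hg))

theorem exists_smul_of_eq (h : RootFam k ι D) (hs : s ∈ D) (ht : t ∈ D) (e : RG k ι s = RG k ι t) :
    ∃ c : k, s = c • t := by
  obtain ⟨a, ha, e1, -⟩ := h.exists_one hs
  obtain ⟨c, hc⟩ := (mem_RG (h.sq t ht)).1 (e ▸ ha)
  exact ⟨c, add_left_cancel (e1.symm.trans hc)⟩

theorem map_cm (h : RootFam k ι D) (hs : s ∈ D) (ht : t ∈ D) (h1 : s * t * s = 0)
    (h2 : t * s * t = 0) {a b : G} {c d : k} (ha : ι a = 1 + c • s) (hb : ι b = 1 + d • t) :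
    ι (a * b * a⁻¹ * b⁻¹) = 1 + (c * d) • (s * t - t * s) := by
  have hs' : ∀ z, s * (s * z) = 0 := fun z => by rw [← mul_assoc, h.sq s hs, zero_mul]
  rw [mul_assoc] at h1 h2
  rw [map_mul, map_mul, map_mul, map_inv_eq (h.sq s hs) ha, map_inv_eq (h.sq t ht) hb, ha, hb]
  simp only [add_mul, mul_add, mul_assoc, smul_mul_assoc, mul_smul_comm, h.sq s hs, h.sq t ht,
    h1, h2, one_mul, mul_one, smul_zero, mul_zero, zero_mul, smul_add]
  module

theorem exists_cm (h : RootFam k ι D) (hs : s ∈ D) (ht : t ∈ D) (h1 : s * t * s = 0)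
    (h2 : t * s * t = 0) (hu : (s * t - t * s) * (s * t - t * s) = 0) {a x : G} (ha : a ∈ RG k ι s)
    (ha1 : a ≠ 1) (hx : x ∈ RG k ι (s * t - t * s)) : ∃ b ∈ RG k ι t, x = a * b * a⁻¹ * b⁻¹ := by
  obtain ⟨c, hc⟩ := (mem_RG (h.sq s hs)).1 ha
  obtain ⟨d, hd⟩ := (mem_RG hu).1 hx
  have hc0 : c ≠ 0 := by
    rintro rfl
    exact ha1 (h.inj (by rw [hc, map_one, zero_smul, add_zero]))
  obtain ⟨b, hb⟩ := h.mem t ht (d / c)
  exact ⟨b, Subgroup.subset_closure ⟨_, hb⟩,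
    h.inj (by rw [h.map_cm hs ht h1 h2 hc hb, hd, mul_div_cancel₀ _ hc0])⟩

theorem commutator_eq (h : RootFam k ι D) (hs : s ∈ D) (ht : t ∈ D) (h1 : s * t * s = 0)
    (h2 : t * s * t = 0) (hu : s * t - t * s ∈ D) :
    ⁅RG k ι s, RG k ι t⁆ = RG k ι (s * t - t * s) := by
  refine le_antisymm (commutator_le_of fun a ha b hb => ?_) fun x hx => ?_
  · obtain ⟨c, hc⟩ := (mem_RG (h.sq s hs)).1 ha
    obtain ⟨d, hd⟩ := (mem_RG (h.sq t ht)).1 hb
    exact Subgroup.subset_closure ⟨_, h.map_cm hs ht h1 h2 hc hd⟩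
  · obtain ⟨a, ha, -, ha1⟩ := h.exists_one hs
    obtain ⟨b, hb, rfl⟩ := h.exists_cm hs ht h1 h2 (h.sq _ hu) ha ha1 hx
    exact cm_mem ha hb

theorem RC (h : RootFam k ι D) (hs : s ∈ D) (ht : t ∈ D) (h1 : s * t * s = 0)
    (h2 : t * s * t = 0) (hu : s * t - t * s ∈ D) :
    RootCommutatorCase (RS k ι D) (RG k ι s) (RG k ι t) := by
  refine RC.mk' ?_ ?_ ?_ ?_ ?_ <;> rw [h.commutator_eq hs ht h1 h2 hu]
  · exact ⟨_, hu, rfl⟩
  · refine h.com hu hs ?_
    simp only [sub_mul, mul_sub, ← mul_assoc, h1, h.sq s hs, zero_mul]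
    simp [mul_assoc, h.sq s hs]
  · refine h.com hu ht ?_
    simp only [sub_mul, mul_sub, ← mul_assoc, h2, h.sq t ht, zero_mul]
    simp [mul_assoc, h.sq t ht]
  · exact fun a ha ha1 c hc => h.exists_cm hs ht h1 h2 (h.sq _ hu) ha ha1 hc
  · intro b hb hb1 c hc
    rw [← RG_neg, neg_sub] at hc
    obtain ⟨a, ha, e⟩ := h.exists_cm ht hs h2 h1
      (by rw [← neg_sub, neg_mul_neg, h.sq _ hu]) hb hb1 (inv_mem hc)
    exact ⟨a, ha, by rw [← inv_inv c, e]; group⟩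

theorem PSL2 (h : RootFam k ι D) (hs : s ∈ D) (ht : t ∈ D) (h0 : s * t * s ≠ 0) :
    IsPSL2PairOver k (RG k ι s) (RG k ι t) := by
  obtain ⟨l, h1, h2, -⟩ := h.tri s hs t ht
  have hl : l ≠ 0 := by rintro rfl; exact h0 (by rw [h1, zero_smul])
  have hss := h.sq s hs
  have htt : (l⁻¹ • t) * (l⁻¹ • t) = 0 := smul_sq (h.sq t ht) _
  have e1 : s * (l⁻¹ • t) * s = s := by
    rw [mul_smul_comm, smul_mul_assoc, h1, smul_smul, inv_mul_cancel₀ hl, one_smul]
  have e2 : (l⁻¹ • t) * s * (l⁻¹ • t) = l⁻¹ • t := by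
    rw [smul_mul_assoc, smul_mul_assoc, mul_smul_comm, h2, smul_smul _ l, inv_mul_cancel₀ hl,
      one_smul]
  have hm : ∀ c : k, ∃ g, ι g = 1 + c • (l⁻¹ • t) := fun c => by rw [smul_smul]; exact h.mem t ht _
  rw [← RG_smul t (inv_ne_zero hl)]
  generalize l⁻¹ • t = b at htt e1 e2 hm
  set e := s * b + b * s with he
  have es : e * s = s := by rw [he, add_mul, e1, mul_assoc, hss, mul_zero, add_zero]
  have se : s * e = s := by rw [he, mul_add, ← mul_assoc, ← mul_assoc, e1, hss, zero_mul, zero_add]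
  have eb : e * b = b := by rw [he, add_mul, e2, mul_assoc, htt, mul_zero, zero_add]
  have be : b * e = b := by rw [he, mul_add, ← mul_assoc, ← mul_assoc, e2, htt, zero_mul, add_zero]
  have ee : e * e = e := by conv_lhs => rw [he, mul_add, ← mul_assoc, ← mul_assoc, ← he, es, eb]
  obtain ⟨Φ, hΦ⟩ := exists_matrix_hom (R := k) hss htt e1 e2 (LinearMap.toSpanSingleton k A e)
    (by simp [he]) (fun r r' => by simp [ee, smul_smul, mul_comm])
    (fun r => by simp [es, se]) (fun r => by simp [eb, be])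
  have hU : ∀ c, (Φ (eU c)).val = 1 + c • s := fun c => by
    rw [eU, hΦ]
    simp only [LinearMap.toSpanSingleton_apply, one_smul, zero_smul, smul_mul_assoc, ← mul_assoc,
      zero_mul, he]
    rw [← he, es, eb, he]; abel
  have hL : ∀ c, (Φ (eL c)).val = 1 + c • b := fun c => by
    rw [eL, hΦ]
    simp only [LinearMap.toSpanSingleton_apply, one_smul, zero_smul, smul_mul_assoc, ← mul_assoc,
      zero_mul, he]
    rw [← he, es, eb, he]; abel
  have hr : ∀ x, ∃ g, ι g = (Φ x).val := fun x => sl2_induction (fun x => ∃ g, ι g = (Φ x).val)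
    (fun c => (hU c).symm ▸ h.mem s hs c) (fun c => (hL c).symm ▸ hm c)
    (fun x y ⟨g, hg⟩ ⟨g', hg'⟩ => ⟨g * g', by rw [map_mul, map_mul, hg, hg', Units.val_mul]⟩) x
  choose f hf using hr
  let φ : SL(2, k) →* G := MonoidHom.mk' f fun x y => h.inj (by
    rw [map_mul, hf, hf, hf, map_mul, Units.val_mul])
  have k1 : RG k ι s = Subgroup.closure (Set.range fun c => φ (sl2U c)) := by
    unfold RG
    congr 1
    ext g
    exact ⟨fun ⟨c, hc⟩ => ⟨c, h.inj ((hf _).trans ((hU c).trans hc.symm))⟩,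
      fun ⟨c, hc⟩ => ⟨c, hc ▸ (hf _).trans (hU c)⟩⟩
  have k2 : RG k ι b = Subgroup.closure (Set.range fun c => φ (sl2L c)) := by
    unfold RG
    congr 1
    ext g
    exact ⟨fun ⟨c, hc⟩ => ⟨c, h.inj ((hf _).trans ((hL c).trans hc.symm))⟩,
      fun ⟨c, hc⟩ => ⟨c, hc ▸ (hf _).trans (hL c)⟩⟩
  rw [k1, k2]
  refine isPSL2PairOver_of_hom φ (fun _ => rfl) (fun _ => rfl) fun hc => h.ne s hs ?_
  have := congrArg ι (hc _ (Subgroup.subset_closure ⟨1, rfl⟩) _ (Subgroup.subset_closure ⟨1, rfl⟩))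
  rw [map_mul, map_mul, show ι (φ (sl2U 1)) = _ from (hf _).trans (hU 1),
    show ι (φ (sl2L 1)) = _ from (hf _).trans (hL 1), one_smul, one_smul, ← sub_eq_zero,
    show (1 + s) * (1 + b) - (1 + b) * (1 + s) = s * b - b * s by noncomm_ring, sub_eq_zero] at this
  rw [← e1, this, mul_assoc, hss, mul_zero]

theorem RO (h : RootFam k ι D) (hs : s ∈ D) (ht : t ∈ D) (h0 : s * t * s ≠ 0) :
    IsRankOnePair (RG k ι s) (RG k ι t) := (special_of_PSL2Pair (h.PSL2 hs ht h0)).1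

theorem nil_symm (h : RootFam k ι D) (hs : s ∈ D) (ht : t ∈ D) (h0 : s * t * s = 0) :
    t * s * t = 0 := by
  obtain ⟨l, h1, h2, -⟩ := h.tri s hs t ht
  rw [h2, (smul_eq_zero.1 (h1.symm.trans h0)).resolve_right (h.ne s hs), zero_smul]

theorem comm_mem (h : RootFam k ι D) (hs : s ∈ D) (ht : t ∈ D) (h0 : s * t * s = 0)
    (h1 : s * t - t * s ≠ 0) : s * t - t * s ∈ D := by
  obtain ⟨l, h2, -, h3⟩ := h.tri s hs t ht
  exact h3 ((smul_eq_zero.1 (h2.symm.trans h0)).resolve_right (h.ne s hs)) h1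

theorem RO_iff (h : RootFam k ι D) (hs : s ∈ D) (ht : t ∈ D) :
    IsRankOnePair (RG k ι s) (RG k ι t) ↔ s * t * s ≠ 0 := by
  refine ⟨fun hRO h0 => ?_, h.RO hs ht⟩
  obtain ⟨a, ha, e, ha1⟩ := h.exists_one hs
  have h5 := RO.pair_conj hRO ha ha1
  rw [conjBy_RG (h.sq t ht)] at h5
  refine (h.com ht (h.conj t ht a) ?_).not_RO h5
  have h1 := h.nil_symm hs ht h0
  rw [map_inv_eq (k := k) (c := 1) (h.sq s hs) (by rw [e, one_smul]), e, neg_smul, one_smul]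
  rw [mul_assoc] at h0 h1
  have ht' : ∀ z, t * (t * z) = 0 := fun z => by rw [← mul_assoc, h.sq t ht, zero_mul]
  simp only [mul_add, add_mul, mul_assoc, mul_neg, neg_mul, one_mul, mul_one, h0, h1, ht', h.sq t ht,
    mul_zero, neg_zero, add_zero, sub_self]

theorem pair (h : RootFam k ι D) {X Y : Subgroup G} (hX : X ∈ RS k ι D) (hY : Y ∈ RS k ι D) :
    Com X Y ∨ IsRankOnePair X Y ∨ RootCommutatorCase (RS k ι D) X Y := by
  obtain ⟨s, hs, rfl⟩ := hX
  obtain ⟨t, ht, rfl⟩ := hY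
  by_cases h0 : s * t - t * s = 0
  · exact Or.inl (h.com hs ht h0)
  by_cases h1 : s * t * s = 0
  · exact Or.inr (Or.inr (h.RC hs ht h1 (h.nil_symm hs ht h1) (h.comm_mem hs ht h1 h0)))
  · exact Or.inr (Or.inl (h.RO hs ht h1))

theorem com_self (h : RootFam k ι D) {X : Subgroup G} (hX : X ∈ RS k ι D) : Com X X := by
  obtain ⟨s, hs, rfl⟩ := hX
  exact h.com hs hs (sub_self _)

theorem ne_bot' (h : RootFam k ι D) {X : Subgroup G} (hX : X ∈ RS k ι D) : X ≠ ⊥ := by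
  obtain ⟨s, hs, rfl⟩ := hX
  exact h.ne_bot hs

theorem conj_mem (h : RootFam k ι D) {X : Subgroup G} (hX : X ∈ RS k ι D) (g : G) :
    conjBy X g ∈ RS k ι D := by
  obtain ⟨s, hs, rfl⟩ := hX
  exact ⟨_, h.conj s hs g, conjBy_RG (h.sq s hs) g⟩

theorem PSL2' (h : RootFam k ι D) {X Y : Subgroup G} (hX : X ∈ RS k ι D) (hY : Y ∈ RS k ι D)
    (hRO : IsRankOnePair X Y) : IsPSL2PairOver k X Y := by
  obtain ⟨s, hs, rfl⟩ := hX
  obtain ⟨t, ht, rfl⟩ := hY
  exact h.PSL2 hs ht ((h.RO_iff hs ht).1 hRO)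

theorem kRootSet (h : RootFam k ι D) (hgen : (⨆ X ∈ RS k ι D, X) = ⊤) :
    IsKRootSubgroupSet k (RS k ι D) :=
  ⟨⟨fun _ hX => com_self_iff.1 (h.com_self hX), fun _ hX => h.ne_bot' hX, hgen,
    fun _ hX g => h.conj_mem hX g,
    fun _ hX _ hY => (h.pair hX hY).imp_left com_iff.1⟩, fun _ hX _ hY => h.PSL2' hX hY⟩

theorem kRootSet_subgroupOf (h : RootFam k ι D) : IsKRootSubgroupSet k
    ((fun X : Subgroup G => X.subgroupOf (⨆ Y ∈ RS k ι D, Y)) '' RS k ι D) := by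
  refine ⟨isRootSubgroupSet_subgroupOf (fun _ hX => h.com_self hX) (fun _ hX => h.ne_bot' hX)
    (fun _ hX g _ => h.conj_mem hX g) fun _ hX _ hY => h.pair hX hY, ?_⟩
  rintro _ ⟨X, hX, rfl⟩ _ ⟨Y, hY, rfl⟩ hRO
  exact PSL2Pair_subgroupOf (le_biSup hX) (le_biSup hY)
    (h.PSL2' hX hY ((RO.subgroupOf_iff (le_biSup hX) (le_biSup hY)).1 hRO))

theorem reach (h : RootFam k ι D) (hs : s ∈ D) (ht : t ∈ D) (h0 : s * t * s ≠ 0) :
    Reach (RS k ι D) (RG k ι s) (RG k ι t) :=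
  Reach.single ⟨s, hs, rfl⟩ ⟨t, ht, rfl⟩ (h.RO hs ht h0)

theorem reach_or (h : RootFam k ι D) (hopp : ∀ s ∈ D, ∃ t ∈ D, s * t * s ≠ 0) {a b c : A}
    (ha : a ∈ D) (hb : b ∈ D) (hc : c ∈ D) {x y : k} (e : c = x • a + y • b) :
    Reach (RS k ι D) (RG k ι c) (RG k ι a) ∨ Reach (RS k ι D) (RG k ι c) (RG k ι b) := by
  obtain ⟨w, hw, h1⟩ := hopp c hc
  by_cases h3 : w * a * w = 0
  · refine Or.inr ((h.reach hc hw h1).trans (h.reach hw hb fun e' => h1 (h.nil_symm hw hc ?_)))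
    rw [e, mul_add, add_mul, mul_smul_comm, smul_mul_assoc, mul_smul_comm, smul_mul_assoc, h3, e']
    simp
  · exact Or.inl ((h.reach hc hw h1).trans (h.reach hw ha h3))

theorem reach_of_add (h : RootFam k ι D) (hopp : ∀ s ∈ D, ∃ t ∈ D, s * t * s ≠ 0) {a b : A}
    (ha : a ∈ D) (hb : b ∈ D) (hc : a + b ∈ D) : Reach (RS k ι D) (RG k ι a) (RG k ι b) := by
  rcases h.reach_or hopp hb hc ha (x := -1) (y := 1) (by module) with h1 | h1
  · exact h1
  · rcases h.reach_or hopp ha hc hb (x := -1) (y := 1) (by module) with h2 | h2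
    · exact Reach.symm h2
    · exact h1.trans (Reach.symm h2)

end RootFam

end Cfsg.Agent.H36
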