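import Cfsg.Agent.H36.RootFam
import Cfsg.Agent.H26.SLBasic

set_option autoImplicit false
set_option linter.unusedSectionVars false

/-! Transvection subgroups of the special linear group. -/

namespace Cfsg.Agent.H36

open Cfsg Matrix

universe u

variable {k : Type u} [Field k] {n : Type*} [Fintype n] [DecidableEq n]

theorem vmv_mul (v φ w ψ : n → k) :
    vecMulVec v φ * vecMulVec w ψ = (φ ⬝ᵥ w) • vecMulVec v ψ := by
  rw [vecMulVec_mul_vecMulVec, vecMulVec_smul]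

theorem vmv_triple (v φ w ψ : n → k) :
    vecMulVec v φ * vecMulVec w ψ * vecMulVec v φ = ((φ ⬝ᵥ w) * (ψ ⬝ᵥ v)) • vecMulVec v φ := by
  rw [vmv_mul, smul_mul_assoc, vmv_mul, smul_smul]

theorem det_one_add_vmv (v φ : n → k) : det (1 + vecMulVec v φ) = 1 + φ ⬝ᵥ v := by
  rw [vecMulVec_eq Unit, det_one_add_replicateCol_mul_replicateRow]

theorem mulVec_ne_zero_of {G : Type*} [Group G] (ι : G →* Matrix n n k) (g : G) {v : n → k}
    (hv : v ≠ 0) : ι g *ᵥ v ≠ 0 := fun e => hv (by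
  rw [← one_mulVec v, ← map_one ι, ← inv_mul_cancel g, map_mul, ← mulVec_mulVec, e, mulVec_zero])

theorem vecMul_ne_zero_of {G : Type*} [Group G] (ι : G →* Matrix n n k) (g : G) {v : n → k}
    (hv : v ≠ 0) : v ᵥ* ι g ≠ 0 := fun e => hv (by
  rw [← vecMul_one v, ← map_one ι, ← mul_inv_cancel g, map_mul, ← vecMul_vecMul, e, zero_vecMul])

/-- The rank one nilpotent matrices. -/
def DSL (n : Type*) [Fintype n] (k : Type u) [Field k] : Set (Matrix n n k) :=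
  {s | ∃ v φ : n → k, v ≠ 0 ∧ φ ≠ 0 ∧ φ ⬝ᵥ v = 0 ∧ s = vecMulVec v φ}

theorem mem_DSL {v φ : n → k} (hv : v ≠ 0) (hφ : φ ≠ 0) (h : φ ⬝ᵥ v = 0) :
    vecMulVec v φ ∈ DSL n k := ⟨v, φ, hv, hφ, h, rfl⟩

theorem DSL_smul {s : Matrix n n k} (hs : s ∈ DSL n k) {c : k} (hc : c ≠ 0) : c • s ∈ DSL n k := by
  obtain ⟨v, φ, hv, hφ, h, rfl⟩ := hs
  rw [← smul_vecMulVec]
  exact mem_DSL (smul_ne_zero hc hv) hφ (by rw [dotProduct_smul, h, smul_zero])

theorem rootFam_SL : RootFam k (SpecialLinearGroup.coeMonoidHom (ι := n) (R := k)) (DSL n k) where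
  inj := SpecialLinearGroup.coeMonoidHom_injective
  ne := by
    rintro _ ⟨v, φ, hv, hφ, -, rfl⟩
    exact vecMulVec_ne_zero hv hφ
  sq := by
    rintro _ ⟨v, φ, -, -, h, rfl⟩
    rw [vmv_mul, h, zero_smul]
  mem := by
    rintro _ ⟨v, φ, -, -, h, rfl⟩ c
    refine ⟨⟨1 + c • vecMulVec v φ, ?_⟩, rfl⟩
    rw [← smul_vecMulVec, det_one_add_vmv, dotProduct_smul, h, smul_zero, add_zero]
  conj := by
    rintro _ ⟨v, φ, hv, hφ, h, rfl⟩ g
    rw [mul_vecMulVec, vecMulVec_mul]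
    refine mem_DSL (mulVec_ne_zero_of _ g hv) (vecMul_ne_zero_of _ _ hφ) ?_
    rw [← dotProduct_mulVec, mulVec_mulVec, ← map_mul, inv_mul_cancel, map_one, one_mulVec, h]
  tri := by
    rintro _ ⟨v, φ, hv, hφ, h, rfl⟩ _ ⟨w, ψ, hw, hψ, h', rfl⟩
    refine ⟨_, vmv_triple _ _ _ _, by rw [vmv_triple, mul_comm], fun hl h0 => ?_⟩
    rw [vmv_mul, vmv_mul] at h0 ⊢
    rcases mul_eq_zero.1 hl with e | e
    · rw [e, zero_smul, zero_sub, ← neg_smul] at h0 ⊢
      exact DSL_smul (mem_DSL hw hφ e) (left_ne_zero_of_smul h0)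
    · rw [e, zero_smul, sub_zero] at h0 ⊢
      exact DSL_smul (mem_DSL hv hψ e) (left_ne_zero_of_smul h0)

theorem DSL_opp : ∀ s ∈ DSL n k, ∃ t ∈ DSL n k, s * t * s ≠ 0 := by
  rintro _ ⟨v, φ, hv, hφ, h, rfl⟩
  obtain ⟨j, hj⟩ := Function.ne_iff.1 hv
  obtain ⟨i, hij, hi⟩ : ∃ i, i ≠ j ∧ φ i ≠ 0 := by
    by_contra hc
    push Not at hc
    rw [dotProduct, Finset.sum_eq_single j (fun i _ hi => by rw [hc i hi, zero_mul]) (by simp)] at h
    refine hφ (funext fun i => ?_)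
    by_cases e : i = j
    · exact e ▸ (mul_eq_zero.1 h).resolve_right hj
    · exact hc i e
  refine ⟨_, mem_DSL (v := Pi.single i 1) (φ := Pi.single j 1) (by simp) (by simp) (by simp [hij]), ?_⟩
  rw [vmv_triple]
  exact smul_ne_zero (mul_ne_zero (by simpa using hi) (by simpa using hj)) (vecMulVec_ne_zero hv hφ)

theorem exists_dot_eq_zero (h : 2 < Fintype.card n) (φ ψ : n → k) :
    ∃ u : n → k, u ≠ 0 ∧ φ ⬝ᵥ u = 0 ∧ ψ ⬝ᵥ u = 0 := by
  obtain ⟨u, hu, h0⟩ := (Submodule.ne_bot_iff _).1 (LinearMap.ker_ne_bot_of_finrank_lt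
    (f := Matrix.mulVecLin (Matrix.of ![φ, ψ])) (by simpa using h))
  exact ⟨u, h0, congrFun hu 0, congrFun hu 1⟩

theorem DSL_connected (h : 2 < Fintype.card n) : IsConnectedFamily
    (FAdj (RS k (SpecialLinearGroup.coeMonoidHom (ι := n) (R := k)) (DSL n k)))
    (RS k (SpecialLinearGroup.coeMonoidHom (ι := n) (R := k)) (DSL n k)) := by
  have k1 : ∀ v w φ : n → k, v ≠ 0 → w ≠ 0 → φ ≠ 0 → φ ⬝ᵥ v = 0 → φ ⬝ᵥ w = 0 →
      Reach (RS k (SpecialLinearGroup.coeMonoidHom (ι := n) (R := k)) (DSL n k))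
        (RG k SpecialLinearGroup.coeMonoidHom (vecMulVec v φ))
        (RG k SpecialLinearGroup.coeMonoidHom (vecMulVec w φ)) := by
    intro v w φ hv hw hφ h1 h2
    by_cases e : v + w = 0
    · rw [eq_neg_of_add_eq_zero_left e, neg_vecMulVec, RG_neg]
    · exact rootFam_SL.reach_of_add DSL_opp (mem_DSL hv hφ h1) (mem_DSL hw hφ h2)
        (add_vecMulVec v w φ ▸ mem_DSL e hφ (by rw [dotProduct_add, h1, h2, add_zero]))
  have k2 : ∀ v φ ψ : n → k, v ≠ 0 → φ ≠ 0 → ψ ≠ 0 → φ ⬝ᵥ v = 0 → ψ ⬝ᵥ v = 0 →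
      Reach (RS k (SpecialLinearGroup.coeMonoidHom (ι := n) (R := k)) (DSL n k))
        (RG k SpecialLinearGroup.coeMonoidHom (vecMulVec v φ))
        (RG k SpecialLinearGroup.coeMonoidHom (vecMulVec v ψ)) := by
    intro v φ ψ hv hφ hψ h1 h2
    by_cases e : φ + ψ = 0
    · rw [eq_neg_of_add_eq_zero_left e, vecMulVec_neg, RG_neg]
    · exact rootFam_SL.reach_of_add DSL_opp (mem_DSL hv hφ h1) (mem_DSL hv hψ h2)
        (vecMulVec_add v φ ψ ▸ mem_DSL hv e (by rw [add_dotProduct, h1, h2, add_zero]))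
  rintro _ ⟨_, ⟨v, φ, hv, hφ, h1, rfl⟩, rfl⟩ _ ⟨_, ⟨w, ψ, hw, hψ, h2, rfl⟩, rfl⟩
  obtain ⟨u, hu, h3, h4⟩ := exists_dot_eq_zero h φ ψ
  exact ((k1 v u φ hv hu hφ h1 h3).trans (k2 u φ ψ hu hφ hψ h3 h4)).trans (k1 u w ψ hu hw hψ h4 h2)

theorem single_mem_DSL {i j : n} (h : i ≠ j) :
    vecMulVec (Pi.single i (1 : k)) (Pi.single j 1) ∈ DSL n k :=
  mem_DSL (by simp) (by simp) (by simp [h])

theorem transvection_eq (i j : n) (c : k) :
    transvection i j c = 1 + c • vecMulVec (Pi.single i (1 : k)) (Pi.single j 1) := by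
  rw [transvection, ← single_eq_single_vecMulVec_single, smul_single, smul_eq_mul, mul_one]

theorem DSL_gen : (⨆ X ∈ RS k (SpecialLinearGroup.coeMonoidHom (ι := n) (R := k)) (DSL n k), X) = ⊤ :=
  eq_top_iff.2 fun g _ => H26.sl_transvection_induction (· ∈ _) (one_mem _)
    (fun i j h c => le_biSup (T := RS k _ (DSL n k)) ⟨_, single_mem_DSL h, rfl⟩
      (Subgroup.subset_closure ⟨c, transvection_eq i j c⟩)) (fun _ _ => mul_mem) g

theorem RS_DSL_eq (h : 2 < Fintype.card n) {i j : n} (hij : i ≠ j) :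
    {A : Subgroup (SpecialLinearGroup n k) | ∃ g : SpecialLinearGroup n k,
      A = conjBy (Subgroup.closure {t : SpecialLinearGroup n k |
        ∃ c : k, (t : Matrix n n k) = transvection i j c}) g} =
      RS k SpecialLinearGroup.coeMonoidHom (DSL n k) := by
  have : Subgroup.closure {t : SpecialLinearGroup n k |
      ∃ c : k, (t : Matrix n n k) = transvection i j c} =
      RG k SpecialLinearGroup.coeMonoidHom (vecMulVec (Pi.single i (1 : k)) (Pi.single j 1)) := by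
    simp only [transvection_eq]; rfl
  rw [this]
  ext A
  constructor
  · rintro ⟨g, rfl⟩
    exact rootFam_SL.conj_mem ⟨_, single_mem_DSL hij, rfl⟩ g
  · exact fun hA => Reach.exists_conj (DSL_connected h _ ⟨_, single_mem_DSL hij, rfl⟩ A hA)

end Cfsg.Agent.H36
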