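import Cfsg.Agent.H36.SL2Pair

set_option autoImplicit false

/-! Abstract transvection groups: two commuting root subgroups with a common opposite. -/

namespace Cfsg.Agent.H36

open Cfsg

variable {G : Type*} [Group G] {S : Set (Subgroup G)} {A B C E : Subgroup G}

theorem special_of_mt_inv (h : IsRankOnePair A B)
    (h' : ∀ a b, Mt A B a b → Mt A B a⁻¹ b⁻¹) : IsSpecialRankOnePair A B := by
  refine Sp.mk' h fun a b m => ?_
  have h1 : b * a * b⁻¹ ∈ conjBy B a := m.eq ▸ conj_mem_conjBy b m.left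
  obtain ⟨b', hb', e⟩ := exists_of_mem_conjBy h1
  have m' := h' a b m
  have e1 : conjBy A (b * a * b⁻¹) = B := by
    rw [← conjBy_conjBy, ← conjBy_conjBy, m'.eq, conjBy_cancel_inv, conjBy_of_mem m.right]
  rw [e, ← conjBy_conjBy, ← conjBy_conjBy, conjBy_of_mem (inv_mem m.left), conjBy_eq_iff] at e1
  rw [e, Mt.right_unique h m' ⟨m'.left, hb', e1⟩]

/-- two commuting root subgroups with a common opposite -/
structure Cfg (S : Set (Subgroup G)) (A C B : Subgroup G) : Prop where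
  hA : A ∈ S
  hC : C ∈ S
  hB : B ∈ S
  com : Com A C
  ne : A ≠ C
  ro1 : IsRankOnePair A B
  ro2 : IsRankOnePair C B

theorem Cfg.symm (h : Cfg S A C B) : Cfg S C A B :=
  ⟨h.hC, h.hA, h.hB, h.com.symm, h.ne.symm, h.ro2, h.ro1⟩

theorem Cfg.reg (hS : IsRootSubgroupSet S) (h : Cfg S A C B) {a c : G} (ha : a ∈ A) (hc : c ∈ C)
    (e : conjBy B (a * c) = B) : a = 1 := by
  by_contra ha1
  have e2 : conjBy B c = conjBy B a⁻¹ := by rw [← conjBy_eq_iff, conjBy_conjBy, e]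
  have := (RS.mem_unip_of_conj hS h.hB h.ro1 h.hC (inv_mem ha) (inv_ne_one.mpr ha1) hc e2).1
  exact h.com.not_RO (RO.of_mem_unip h.ro1 (mem_unip_self A B) this h.ne)

theorem Cfg.uniq (h : Cfg S A C B) {a a' c : G} (ha : a ∈ A) (ha' : a' ∈ A) (hc : c ∈ C)
    (h1 : Com (conjBy B a) (conjBy B c)) (h2 : Com (conjBy B a') (conjBy B c)) : a = a' := by
  by_contra hne
  have e := RO.sup_eq_of_mem_unip h.ro1 (RO.conj_mem_unip h.ro1 ha) (RO.conj_mem_unip h.ro1 ha')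
    fun e => hne (RO.eq_of_conjBy_eq h.ro1 ha ha' e)
  have h3 := (e ▸ h1.sup_left h2).mono le_sup_left le_rfl
  rw [← h.com.symm.conjBy_eq hc] at h3
  exact h3.of_conj.not_RO h.ro1

/-- the commutator `b t b⁻¹ t⁻¹` -/
def UU (t b : G) : G := b * t * b⁻¹ * t⁻¹

theorem UU_comm {t b b' : G} (hB : Com B B) (ht : Com B (conjBy B t)) (hb : b ∈ B) (hb' : b' ∈ B) :
    UU t b * b' = b' * UU t b := by
  have h1 := ht b' hb' _ (conj_mem_conjBy t (inv_mem hb))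
  have h2 := hB b hb b' hb'
  calc UU t b * b' = b * ((t * b⁻¹ * t⁻¹) * b') := by simp only [UU, mul_assoc]
    _ = (b * b') * (t * b⁻¹ * t⁻¹) := by rw [← h1, ← mul_assoc]
    _ = b' * UU t b := by rw [h2]; simp only [UU, mul_assoc]

theorem UU_mul {t b b' : G} (hB : Com B B) (ht : Com B (conjBy B t)) (hb : b ∈ B) (hb' : b' ∈ B) :
    UU t (b * b') = UU t b * UU t b' := by
  have h1 := UU_comm hB ht hb hb'
  have h2 := hB b hb b' hb'
  calc UU t (b * b') = UU t (b' * b) := by rw [h2]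
    _ = b' * UU t b * (t * b'⁻¹ * t⁻¹) := by simp only [UU]; group
    _ = UU t b * UU t b' := by rw [← h1]; simp only [UU]; group

theorem UU_one (t : G) : UU t 1 = 1 := by simp [UU]

theorem UU_pow {t b : G} (hB : Com B B) (ht : Com B (conjBy B t)) (hb : b ∈ B) (n : ℕ) :
    UU t (b ^ n) = UU t b ^ n := by
  induction n with
  | zero => simp [UU]
  | succ n ih => rw [pow_succ, UU_mul hB ht (pow_mem hb n) hb, ih, pow_succ]

theorem conjBy_UU {t : G} (ht : ∀ a ∈ A, t * a = a * t) (b : G) :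
    conjBy A (UU t b) = conjBy A (b * t * b⁻¹) := by
  rw [UU, ← conjBy_conjBy _ t⁻¹, conjBy_of_comm (A := A) (g := t⁻¹)
    fun a ha => (Commute.inv_left (ht a ha))]

theorem com_UU (h : IsRankOnePair A B) (hA : Com A A) {t : G} (ht : ∀ a ∈ A, t * a = a * t)
    (htB : Com B (conjBy B t)) {b : G} (hb : b ∈ B) : Com A (conjBy A (UU t b)) := by
  by_cases hb1 : b = 1
  · rw [hb1, UU_one, conjBy_one]; exact hA
  obtain ⟨a, m⟩ := Mt.exists_left h (inv_mem hb) (inv_ne_one.mpr hb1)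
  rw [conjBy_UU ht]
  refine Com.of_conj (g := b⁻¹) ?_
  rw [conjBy_conjBy, show b⁻¹ * (b * t * b⁻¹) = t * b⁻¹ by group, ← conjBy_conjBy, m.eq,
    conjBy_conjBy, ht a m.left, ← conjBy_conjBy]
  exact htB.conj a

theorem Cfg.t_comm (hS : IsRootSubgroupSet S) (h : Cfg S A C B) {a c : G} (ha : a ∈ A) (hc : c ∈ C) :
    ∀ x ∈ A, a * c * x = x * (a * c) := fun x hx => by
  rw [mul_assoc, ← h.com x hx c hc, ← mul_assoc, RS.com_self hS h.hA a ha x hx, mul_assoc]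

theorem Cfg.com_of_mt (h : Cfg S A C B) {a b c : G} (m : Mt A B a b) (m' : Mt C B c b) :
    Com (conjBy B a) (conjBy B c) := by
  rw [← m.eq, ← m'.eq]; exact h.com.conj b

theorem com_t {a c : G} (h : Com (conjBy B a) (conjBy B c)) : Com B (conjBy B (a⁻¹ * c)) := by
  have := h.conj a⁻¹
  rwa [conjBy_inv_cancel, conjBy_conjBy] at this

theorem com_t' {a c : G} (h : Com B (conjBy B (a⁻¹ * c))) : Com (conjBy B a) (conjBy B c) := by
  have := h.conj a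
  rwa [conjBy_conjBy, mul_inv_cancel_left] at this

theorem Cfg.conj_UU (hS : IsRootSubgroupSet S) (h : Cfg S A C B) {a b c : G} (m : Mt A B a b)
    (m' : Mt C B c b) : conjBy A (UU (a⁻¹ * c) b⁻¹) = C := by
  have h1 := h.com a m.left c m'.left
  rw [conjBy_UU (h.t_comm hS (inv_mem m.left) m'.left), inv_inv, ← conjBy_conjBy, m.eq,
    conjBy_conjBy, show b⁻¹ * (a⁻¹ * c) * a = b⁻¹ * (a⁻¹ * (c * a)) by group, ← h1,
    inv_mul_cancel_left, ← conjBy_conjBy, ← m'.eq, conjBy_inv_cancel]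

theorem Cfg.cfg_t (hS : IsRootSubgroupSet S) (h : Cfg S A C B) {a c : G} (ha : a ∈ A) (hc : c ∈ C)
    (ha1 : a ≠ 1) (ht : Com B (conjBy B (a * c))) : Cfg S B (conjBy B (a * c)) A := by
  refine ⟨h.hB, hS.conj_mem B h.hB _, h.hA, ht, fun e => ha1 (h.reg hS ha hc e.symm),
    RO.symm h.ro1, ?_⟩
  have := RO.conj (RO.symm h.ro1) (a * c)
  rwa [conjBy_of_comm (h.t_comm hS ha hc)] at this

theorem Cfg.eq_one_of_UU (hS : IsRootSubgroupSet S) (h : Cfg S A C B) {a c b : G} (ha : a ∈ A)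
    (hc : c ∈ C) (ha1 : a ≠ 1) (ht : Com B (conjBy B (a * c))) (hb : b ∈ B)
    (e : conjBy A (UU (a * c) b) = A) : b = 1 :=
  (h.cfg_t hS ha hc ha1 ht).reg hS hb (conj_mem_conjBy (a * c) (inv_mem hb))
    (by simpa only [UU, mul_assoc] using e)

theorem Cfg.special (hS : IsRootSubgroupSet S) (h : Cfg S A C B) : IsSpecialRankOnePair A B := by
  refine special_of_mt_inv h.ro1 fun a b m => ?_
  have ha1 := m.left_ne h.ro1
  obtain ⟨c, m1⟩ := Mt.exists_left h.ro2 m.right (m.right_ne h.ro1)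
  obtain ⟨b', m2⟩ := Mt.exists_right h.ro1 (inv_mem m.left) (inv_ne_one.mpr ha1)
  obtain ⟨c', m3⟩ := Mt.exists_left h.ro2 m2.right (m2.right_ne h.ro1)
  have hac := h.com a m.left c m1.left
  have k1 := h.com_of_mt m m1
  have k2 := h.com_of_mt m2 m3
  have k3 : Com (conjBy B a⁻¹) (conjBy B c⁻¹) := by
    have := (k1.conj (a⁻¹ * c⁻¹)).symm
    rwa [conjBy_conjBy, conjBy_conjBy, inv_mul_cancel_right,
      show a⁻¹ * c⁻¹ * a = c⁻¹ by rw [← mul_inv_rev, ← hac]; group] at this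
  obtain rfl : c' = c⁻¹ := h.symm.uniq m3.left (inv_mem m1.left) (inv_mem m.left) k2.symm k3.symm
  have hB := RS.com_self hS h.hB
  have e1 := h.conj_UU hS m m1
  have e2 := h.conj_UU hS m2 m3
  have ht := com_t k1
  obtain ⟨t, htd⟩ : ∃ t, t = a⁻¹ * c := ⟨_, rfl⟩
  have et : a⁻¹⁻¹ * c⁻¹ = t⁻¹ := by
    rw [htd, mul_inv_rev, inv_inv]; exact (Commute.inv_right hac)
  rw [et] at e2
  have htA : ∀ x ∈ A, t * x = x * t := htd ▸ h.t_comm hS (inv_mem m.left) m1.left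
  have htC : conjBy C t = C := by
    rw [htd, ← conjBy_conjBy, conjBy_of_mem m1.left, h.com.conjBy_eq (inv_mem m.left)]
  rw [← htd] at e1 ht
  have e3 : conjBy A (UU t b') = C := by
    have h5 := ht b' m2.right _ (conj_mem_conjBy t (inv_mem m2.right))
    have : UU t⁻¹ b'⁻¹ = t⁻¹ * UU t b' * t := by
      have h6 : UU t b' = (t * b'⁻¹ * t⁻¹) * b' := by rw [← h5]; simp only [UU, mul_assoc]
      have h7 := ht b'⁻¹ (inv_mem m2.right) _ (conj_mem_conjBy t m2.right)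
      rw [h6]; simp only [UU]; group
    rw [this, ← conjBy_conjBy, ← conjBy_conjBy, conjBy_of_comm htA, conjBy_eq_iff, inv_inv,
      htC] at e2
    exact e2
  have e4 : conjBy A (UU t (b * b')) = A := by
    rw [UU_mul hB ht m.right m2.right, ← conjBy_conjBy, e3, ← e1, conjBy_conjBy,
      ← UU_mul hB ht m.right (inv_mem m.right), mul_inv_cancel, UU_one, conjBy_one]
  rw [htd] at e4 ht
  have := h.eq_one_of_UU hS (inv_mem m.left) m1.left (inv_ne_one.mpr ha1) ht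
    (mul_mem m.right m2.right) e4
  rw [← eq_inv_of_mul_eq_one_right this]
  exact m2

theorem Cfg.rel (hS : IsRootSubgroupSet S) (h : Cfg S A C B) {u : G} (hu : ∀ b ∈ B, u * b = b * u)
    (e : conjBy A u = C) {x : G} (hx : x ∈ A) : Com (conjBy B x) (conjBy B (u * x * u⁻¹)) := by
  apply com_t'
  have := com_UU (RO.symm h.ro1) (RS.com_self hS h.hB) hu (e ▸ h.com) (inv_mem hx)
  simpa only [UU, inv_inv, mul_assoc] using this

theorem Cfg.exists_u (hS : IsRootSubgroupSet S) (h : Cfg S A C B) :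
    ∃ u : G, (∀ b ∈ B, u * b = b * u) ∧ conjBy A u = C := by
  obtain ⟨a, ha, ha1⟩ := RO.exists_ne_one h.ro1
  obtain ⟨b, m⟩ := Mt.exists_right h.ro1 ha ha1
  obtain ⟨c, m1⟩ := Mt.exists_left h.ro2 m.right (m.right_ne h.ro1)
  exact ⟨_, fun b' hb' => UU_comm (RS.com_self hS h.hB) (com_t (h.com_of_mt m m1))
    (inv_mem m.right) hb', h.conj_UU hS m m1⟩

/-- an element of order greater than three forces `A` to meet the group generated by its
commuting partners -/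
theorem Cfg.third_diff (hS : IsRootSubgroupSet S) (h : Cfg S A C B) {b : G} (hb : b ∈ B)
    (h1 : b ≠ 1) (h2 : b ^ 2 ≠ 1) (h3 : b ^ 3 ≠ 1) {K : Subgroup G}
    (hK : ∀ F ∈ S, F ≠ A → Com A F → F ≤ K) : ∃ a ∈ A, a ≠ 1 ∧ a ∈ K := by
  obtain ⟨a, m⟩ := Mt.exists_left h.ro1 hb h1
  obtain ⟨c, m1⟩ := Mt.exists_left h.ro2 hb h1
  have ha1 := m.left_ne h.ro1
  have hB := RS.com_self hS h.hB
  have hac := h.com a m.left c m1.left
  have k1 := h.com_of_mt m m1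
  have ht := com_t k1
  have e1 := h.conj_UU hS m m1
  have htA := h.t_comm hS (inv_mem m.left) m1.left
  have hu : ∀ b' ∈ B, UU (a⁻¹ * c) b⁻¹ * b' = b' * UU (a⁻¹ * c) b⁻¹ := fun b' hb' =>
    UU_comm hB ht (inv_mem hb) hb'
  have hin : ∀ i : ℕ, b ^ i ≠ 1 →
      UU (a⁻¹ * c) b⁻¹ ^ i * a * (UU (a⁻¹ * c) b⁻¹ ^ i)⁻¹ ∈ K := by
    intro i hi
    rw [← UU_pow hB ht (inv_mem hb)]
    refine hK _ (hS.conj_mem A h.hA _) (fun e => hi ?_)
      (com_UU h.ro1 (RS.com_self hS h.hA) htA ht (pow_mem (inv_mem hb) i)) (conj_mem_conjBy _ m.left)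
    have := h.eq_one_of_UU hS (inv_mem m.left) m1.left (inv_ne_one.mpr ha1) ht
      (pow_mem (inv_mem hb) i) e
    rwa [inv_pow, inv_eq_one] at this
  have x1 := hin 1 (by simpa using h1)
  have x2 := hin 2 h2
  have x3 := hin 3 h3
  have r1 := h.rel hS hu e1 m.left
  have r2 := h.rel hS hu e1 (mul_mem m.left m.left)
  have hc : UU (a⁻¹ * c) b⁻¹ * a * (UU (a⁻¹ * c) b⁻¹)⁻¹ = c :=
    h.symm.uniq (e1 ▸ conj_mem_conjBy _ m.left) m1.left m.left r1.symm k1.symm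
  obtain ⟨t, htd⟩ : ∃ t, t = a⁻¹ * c := ⟨_, rfl⟩
  rw [← htd] at ht htA hu x1 x2 x3 r2 hc
  have ht2 : Com B (conjBy B (t * t)) := by
    have := com_t r2
    have e : (a * a)⁻¹ * (UU t b⁻¹ * (a * a) * (UU t b⁻¹)⁻¹) = t * t := by
      calc (a * a)⁻¹ * (UU t b⁻¹ * (a * a) * (UU t b⁻¹)⁻¹) = a⁻¹ * (a⁻¹ *
            (UU t b⁻¹ * a * (UU t b⁻¹)⁻¹)) * (UU t b⁻¹ * a * (UU t b⁻¹)⁻¹) := by group
        _ = (a⁻¹ * t) * c := by rw [hc, htd]
        _ = t * t := by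
            rw [← htA _ (inv_mem m.left), mul_assoc, ← htd]
    rwa [e] at this
  -- `t⁻¹ u t` commutes with `u`
  have hcu : Commute (t⁻¹ * UU t b⁻¹ * t) (UU t b⁻¹) := by
    have e : t⁻¹ * UU t b⁻¹ * t = (t⁻¹ * b⁻¹ * t) * b := by simp only [UU]; group
    rw [e]
    refine Commute.mul_left ?_ (hu b hb).symm
    have e2 : UU t b⁻¹ = b⁻¹ * (t * b * t⁻¹) := by simp only [UU]; group
    rw [e2]
    refine Commute.mul_right ?_ ?_
    · have := ht b⁻¹ (inv_mem hb) _ (conj_mem_conjBy t (inv_mem hb))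
      calc t⁻¹ * b⁻¹ * t * b⁻¹ = t⁻¹ * (b⁻¹ * (t * b⁻¹ * t⁻¹)) * t := by group
        _ = b⁻¹ * (t⁻¹ * b⁻¹ * t) := by rw [this]; group
    · have := ht2 b⁻¹ (inv_mem hb) _ (conj_mem_conjBy (t * t) hb)
      calc t⁻¹ * b⁻¹ * t * (t * b * t⁻¹) = t⁻¹ * (b⁻¹ * (t * t * b * (t * t)⁻¹)) * t := by group
        _ = t * b * t⁻¹ * (t⁻¹ * b⁻¹ * t) := by rw [this]; group
  obtain ⟨u, hud⟩ : ∃ u, u = UU t b⁻¹ := ⟨_, rfl⟩
  rw [← hud] at x1 x2 x3 hc hcu
  have et : t = a⁻¹ * (u * a * u⁻¹) := by rw [hc, htd]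
  refine ⟨a, m.left, ha1, ?_⟩
  have key : t⁻¹ * u * t * u⁻¹ = u * (t⁻¹ * u * t * u⁻¹) * u⁻¹ := by
    rw [← mul_assoc u, ← hcu.eq]; group
  have e5 : a = (u * a * u⁻¹) * (t⁻¹ * u * t * u⁻¹) * (u ^ 2 * a * (u ^ 2)⁻¹)⁻¹ * (u * a * u⁻¹) := by
    rw [et]; group
  have e6 : u * (t⁻¹ * u * t * u⁻¹) * u⁻¹ = (u ^ 2 * a * (u ^ 2)⁻¹)⁻¹ * (u * a * u⁻¹) *
      (u ^ 2 * a * (u ^ 2)⁻¹)⁻¹ * (u ^ 3 * a * (u ^ 3)⁻¹) := by
    rw [et]; simp only [pow_succ, pow_zero, one_mul, mul_inv_rev, mul_assoc, inv_inv,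
      inv_mul_cancel_left, mul_inv_cancel_left]
  rw [pow_one] at x1
  rw [e5, key, e6]
  exact mul_mem (mul_mem (mul_mem x1 (mul_mem (mul_mem (mul_mem (inv_mem x2) x1) (inv_mem x2)) x3))
    (inv_mem x2)) x1

/-- same commuting partners -/
def Eqv (S : Set (Subgroup G)) (D D' : Subgroup G) : Prop :=
  ∀ F ∈ S, (F ≠ D ∧ Com F D) ↔ (F ≠ D' ∧ Com F D')

theorem Eqv.refl (D : Subgroup G) : Eqv S D D := fun _ _ => Iff.rfl
theorem Eqv.symm {D D' : Subgroup G} (h : Eqv S D D') : Eqv S D' D := fun F hF => (h F hF).symm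
theorem Eqv.trans {D D' D'' : Subgroup G} (h : Eqv S D D') (h' : Eqv S D' D'') : Eqv S D D'' :=
  fun F hF => (h F hF).trans (h' F hF)

theorem Eqv.conj (hS : IsRootSubgroupSet S) {D D' : Subgroup G} (h : Eqv S D D') (g : G) :
    Eqv S (conjBy D g) (conjBy D' g) := by
  intro F hF
  have := h _ (hS.conj_mem F hF g⁻¹)
  rw [← conjBy_cancel_inv F g]
  simp only [ne_eq, conjBy_inj]
  exact ⟨fun h1 => ⟨(this.mp ⟨h1.1, h1.2.of_conj⟩).1, (this.mp ⟨h1.1, h1.2.of_conj⟩).2.conj g⟩,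
    fun h1 => ⟨(this.mpr ⟨h1.1, h1.2.of_conj⟩).1, (this.mpr ⟨h1.1, h1.2.of_conj⟩).2.conj g⟩⟩

theorem Eqv.conj' (hS : IsRootSubgroupSet S) {x y : G} (h : Eqv S (conjBy E x) (conjBy E y))
    (g : G) : Eqv S (conjBy E (g * x)) (conjBy E (g * y)) := by
  have := h.conj hS g
  rwa [conjBy_conjBy, conjBy_conjBy] at this

theorem Cfg.eq_one_of_eqv (hS : IsRootSubgroupSet S) (h : Cfg S A C E) {a : G} (ha : a ∈ A)
    (e : Eqv S (conjBy E a) E) : a = 1 := by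
  obtain ⟨x, hx, hx1⟩ := RO.exists_ne_one h.ro1
  obtain ⟨b, m⟩ := Mt.exists_right h.ro1 hx hx1
  obtain ⟨c, m1⟩ := Mt.exists_left h.ro2 m.right (m.right_ne h.ro1)
  have k1 := h.com_of_mt m m1
  have ht := com_t k1
  have h2 := ((e _ (hS.conj_mem E h.hB (x⁻¹ * c))).mpr
    ⟨fun e1 => inv_ne_one.mpr hx1 (h.reg hS (inv_mem hx) m1.left e1), ht.symm⟩).2
  have h3 := h2.symm.conj x
  rw [conjBy_conjBy, conjBy_conjBy, mul_inv_cancel_left] at h3
  simpa using h.uniq (mul_mem hx ha) hx m1.left h3 k1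

theorem commutator_inf_of_eqv (hS : IsRootSubgroupSet S) (h : Cfg S A C E) (h' : Cfg S B C E)
    (e : Eqv S A B) {a : G} (ha : a ∈ A) (ha' : a ∈ ⁅A ⊔ B, A ⊔ B⁆) : a = 1 := by
  obtain ⟨u, hu, eu⟩ := h.exists_u hS
  obtain ⟨v, hv, ev⟩ := h'.exists_u hS
  have hA := RS.com_self hS h.hA
  have k1 : ∀ x ∈ A, Eqv S (conjBy E x) (conjBy E (v⁻¹ * (u * x * u⁻¹) * v)) := by
    intro x hx
    by_cases hx1 : x = 1
    · subst hx1; simpa using Eqv.refl _
    obtain ⟨b, m⟩ := Mt.exists_right h.ro1 hx hx1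
    obtain ⟨c, m1⟩ := Mt.exists_left h.ro2 m.right (m.right_ne h.ro1)
    obtain ⟨y, m2⟩ := Mt.exists_left h'.ro1 m.right (m.right_ne h.ro1)
    have e1 : u * x * u⁻¹ = c := h.symm.uniq (eu ▸ conj_mem_conjBy _ hx) m1.left hx
      (h.rel hS hu eu hx).symm (h.com_of_mt m m1).symm
    have e2 : v * y * v⁻¹ = c := h'.symm.uniq (ev ▸ conj_mem_conjBy _ m2.left) m1.left m2.left
      (h'.rel hS hv ev m2.left).symm (h'.com_of_mt m2 m1).symm
    rw [e1, ← e2, show v⁻¹ * (v * y * v⁻¹) * v = y by group, ← m.eq, ← m2.eq]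
    exact e.conj hS b
  let P : G → G → Prop := fun g a => ∀ x ∈ A, Eqv S (conjBy E (g * x)) (conjBy E (a * x))
  have Pmul : ∀ g g' a a', a' ∈ A → P g a → P g' a' → P (g * g') (a * a') := by
    intro g g' a a' ha' h1 h2 x hx
    rw [mul_assoc, mul_assoc]
    exact ((h2 x hx).conj' hS g).trans (h1 _ (mul_mem ha' hx))
  have Pinv : ∀ g a, a ∈ A → P g a → P g⁻¹ a⁻¹ := by
    intro g a ha h1 x hx
    have := (h1 _ (mul_mem (inv_mem ha) hx)).conj' hS g⁻¹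
    rw [inv_mul_cancel_left, mul_inv_cancel_left] at this
    exact this.symm
  have hP : ∀ g ∈ A ⊔ B, ∃ a ∈ A, P g a := by
    intro g hg
    rw [Subgroup.sup_eq_closure] at hg
    induction hg using Subgroup.closure_induction with
    | mem g hg =>
      rcases hg with hg | hg
      · exact ⟨g, hg, fun x _ => Eqv.refl _⟩
      · have h1 : u⁻¹ * (v * g * v⁻¹) * u ∈ A := by
          rw [← mem_conjBy, eu, ← ev]; exact conj_mem_conjBy v hg
        refine ⟨_, h1, fun x hx => ((k1 x hx).conj' hS g).trans ?_⟩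
        have := (k1 _ (mul_mem h1 hx)).symm
        rwa [show v⁻¹ * (u * (u⁻¹ * (v * g * v⁻¹) * u * x) * u⁻¹) * v =
          g * (v⁻¹ * (u * x * u⁻¹) * v) by group] at this
    | one => exact ⟨1, one_mem _, fun x _ => Eqv.refl _⟩
    | mul x y _ _ ihx ihy =>
      obtain ⟨a, ha, h1⟩ := ihx
      obtain ⟨a', ha', h2⟩ := ihy
      exact ⟨_, mul_mem ha ha', Pmul _ _ _ _ ha' h1 h2⟩
    | inv x _ ih =>
      obtain ⟨a, ha, h1⟩ := ih
      exact ⟨_, inv_mem ha, Pinv _ _ ha h1⟩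
  let K : Subgroup G :=
    { carrier := {g | P g 1}
      mul_mem' := fun {x y} hx hy => by simpa using Pmul _ _ _ _ (one_mem _) hx hy
      one_mem' := fun x _ => Eqv.refl _
      inv_mem' := fun {x} hx => by simpa using Pinv _ _ (one_mem _) hx }
  have hK : ⁅A ⊔ B, A ⊔ B⁆ ≤ K := by
    refine commutator_le_of fun g hg g' hg' => ?_
    obtain ⟨x, hx, h1⟩ := hP g hg
    obtain ⟨y, hy, h2⟩ := hP g' hg'
    have := Pmul _ _ _ _ (inv_mem hy) (Pmul _ _ _ _ (inv_mem hx) (Pmul _ _ _ _ hy h1 h2)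
      (Pinv _ _ hx h1)) (Pinv _ _ hy h2)
    rwa [hA x hx y hy, show y * x * x⁻¹ * y⁻¹ = 1 by group] at this
  have := hK ha' 1 (one_mem _)
  rw [mul_one, mul_one, conjBy_one] at this
  exact h.eq_one_of_eqv hS ha this

theorem exists_cfg (hS : IsRootSubgroupClass S) (hd : ∀ A ∈ S, ∀ B ∈ S, Com A B ∨ IsRankOnePair A B)
    (hcomm : ∃ A ∈ S, ∃ C ∈ S, A ≠ C ∧ ⁅A, C⁆ = ⊥) (hA : A ∈ S) (hN : NI S A) :
    ∃ C E, Cfg S A C E := by
  obtain ⟨A₁, hA₁, C₁, hC₁, hne, hc⟩ := hcomm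
  obtain ⟨g, rfl⟩ := hS.2.2 A₁ hA₁ A hA
  by_contra hn
  push Not at hn
  have key : ∀ D, Reach S (conjBy C₁ g) D → D ≠ conjBy A₁ g ∧ Com (conjBy A₁ g) D := by
    intro D hD
    induction hD with
    | refl => exact ⟨fun e => hne (conjBy_inj.mp e).symm, (com_iff.mpr hc).conj g⟩
    | tail _ h2 ih =>
      refine ⟨?_, ?_⟩
      · rintro rfl
        exact ih.2.symm.not_RO h2.2.2
      · exact (hd _ hA _ h2.2.1).resolve_right fun ro =>
          hn _ _ ⟨hA, h2.1, h2.2.1, ih.2, ih.1.symm, ro, h2.2.2⟩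
  exact (key _ (connected_of_class hS hA hN _ (hS.1.conj_mem _ hC₁ g) _ hA)).1 rfl

end Cfsg.Agent.H36
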